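import Cfsg.Agent.Chev.TitsDeform
import Cfsg.Agent.Char.Irr

/-!
# The commutant of a matrix representation of a finite group

The centre of the commutant has dimension the number of irreducible constituents.  For a
permutation representation the commutant has the orbital matrices as a basis, and all its
derivations are inner.
-/

set_option autoImplicit false
set_option linter.unusedSectionVars false
set_option maxHeartbeats 400000

namespace Cfsg.Lib.Chev.Tits

open Finset Module
open scoped ComplexConjugate ComplexOrder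

section general

variable {G X : Type*} [Group G] [Fintype G] [Fintype X] [DecidableEq X] (ρ : G →* Matrix X X ℂ)

/-- The double commutant theorem for a finite group of matrices. -/
theorem exists_eq_sum_of_comm (z : Matrix X X ℂ)
    (hz : ∀ M : Matrix X X ℂ, (∀ g, ρ g * M = M * ρ g) → M * z = z * M) :
    ∃ a : G → ℂ, z = ∑ g, a g • ρ g := by
  classical
  let σ : Representation ℂ G (X → ℂ) :=
    (Matrix.toLinAlgEquiv' : Matrix X X ℂ ≃ₐ[ℂ] _).toMonoidHom.comp ρ
  have hσ : ∀ g, σ g = Matrix.toLin' (ρ g) := fun _ => rfl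
  have : NeZero (Nat.card G : ℂ) := ⟨Nat.cast_ne_zero.2 Nat.card_pos.ne'⟩
  let f : Module.End (Module.End (MonoidAlgebra ℂ G) σ.asModule) σ.asModule :=
    { toFun := fun v => σ.asModuleEquiv.symm (z.mulVec (σ.asModuleEquiv v))
      map_add' := fun v w => by simp [Matrix.mulVec_add]
      map_smul' := fun φ v => by
        let ψ : (X → ℂ) →ₗ[ℂ] (X → ℂ) :=
          σ.asModuleEquiv.toLinearMap ∘ₗ φ.restrictScalars ℂ ∘ₗ σ.asModuleEquiv.symm.toLinearMap
        have hψ : ∀ u, ψ u = σ.asModuleEquiv (φ (σ.asModuleEquiv.symm u)) := fun _ => rfl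
        have h := hz (LinearMap.toMatrix' ψ) fun g => by
          apply Matrix.toLin'.injective
          rw [Matrix.toLin'_mul, Matrix.toLin'_mul, Matrix.toLin'_toMatrix', ← hσ]
          refine LinearMap.ext fun u => ?_
          change σ g (ψ u) = ψ (σ g u)
          rw [hψ, hψ, Representation.asModuleEquiv_symm_map_rho, map_smul,
            Representation.asModuleEquiv_map_smul, Representation.asAlgebraHom_of]
        have h2 := congrArg (fun M => M.mulVec (σ.asModuleEquiv v)) h
        simp only [← Matrix.mulVec_mulVec, LinearMap.toMatrix'_mulVec, hψ,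
          LinearEquiv.symm_apply_apply] at h2
        simp only [Module.End.smul_def, RingHom.id_apply]
        rw [← h2, LinearEquiv.symm_apply_apply] }
  obtain ⟨r, hr⟩ := jacobson_density f
    (univ.image fun x : X => σ.asModuleEquiv.symm (Pi.single x 1))
  refine ⟨fun g => r.coeff g, ?_⟩
  ext1 x y
  have h1 := congrArg σ.asModuleEquiv (hr _ (mem_image_of_mem _ (mem_univ y)))
  rw [Representation.asModuleEquiv_map_smul, LinearEquiv.apply_symm_apply] at h1
  have h2 : σ.asModuleEquiv (f (σ.asModuleEquiv.symm (Pi.single y 1))) =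
      z.mulVec (Pi.single y 1) := rfl
  rw [h2, Representation.asAlgebraHom_def, MonoidAlgebra.lift_apply,
    Finsupp.sum_fintype _ _ (by simp)] at h1
  have h3 := congrFun h1 x
  simp only [hσ, LinearMap.coe_sum, Finset.sum_apply, LinearMap.smul_apply, Matrix.toLin'_apply,
    Matrix.mulVec_single_one, Matrix.col_apply, Pi.smul_apply] at h3
  rw [h3, Matrix.sum_apply]
  rfl

/-- The isotypic projections. -/
noncomputable def isoProj (χ : G → ℂ) : Matrix X X ℂ :=
  (χ 1 / Nat.card G) • ∑ g, χ g⁻¹ • ρ g

theorem isoProj_eq_1' : type_of% @isoProj.eq_1 := @isoProj.eq_1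

theorem sum_smul_comm_of_class {a : G → ℂ} (ha : IsClassFunction G a) (h : G) :
    ρ h * ∑ g, a g • ρ g = (∑ g, a g • ρ g) * ρ h := by
  rw [mul_sum, sum_mul]
  refine Fintype.sum_equiv (MulAut.conj h).toEquiv _ _ fun g => ?_
  have : (MulAut.conj h).toEquiv g = h * g * h⁻¹ := rfl
  rw [this, ha, mul_smul_comm, smul_mul_assoc, ← map_mul, ← map_mul, inv_mul_cancel_right]

theorem isoProj_mul (χ ψ : IrrCharacter G) [Decidable (χ = ψ)] :
    isoProj ρ χ * isoProj ρ ψ = if χ = ψ then isoProj ρ ψ else 0 := by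
  have hG : (Nat.card G : ℂ) ≠ 0 := Nat.cast_ne_zero.2 Nat.card_pos.ne'
  have hcl : IsClassFunction G fun g => (χ : G → ℂ) g⁻¹ := fun g h => by
    simpa [mul_assoc] using χ.2.isClassFunction g⁻¹ h
  have h1 : ∑ g, (χ : G → ℂ) g⁻¹ * (ψ : G → ℂ) g = Nat.card G * if χ = ψ then 1 else 0 := by
    have := Char.classInner_irr ψ χ
    rw [classInner, inv_mul_eq_iff_eq_mul₀ hG] at this
    simp only [χ.2.isCharacter.apply_inv, mul_comm _ ((ψ : G → ℂ) _), this, eq_comm (a := ψ)]
  have h2 : (∑ g, (χ : G → ℂ) g⁻¹ • ρ g) * ∑ g, (ψ : G → ℂ) g⁻¹ • ρ g =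
      ∑ k, (∑ g, (χ : G → ℂ) g⁻¹ * (ψ : G → ℂ) (g * k⁻¹)) • ρ k := by
    simp only [sum_mul, sum_smul]
    rw [sum_comm]
    refine sum_congr rfl fun g _ => ?_
    rw [mul_sum]
    refine Fintype.sum_equiv (Equiv.mulLeft g) _ _ fun h => ?_
    rw [Equiv.coe_mulLeft, smul_mul_smul_comm, map_mul, mul_inv_rev, ← mul_assoc,
      ψ.2.isClassFunction]
  rw [isoProj, isoProj, smul_mul_smul_comm, h2]
  simp only [ψ.2.sum_mul_apply_mul hcl, h1]
  split_ifs with h
  · subst h
    rw [smul_sum, smul_sum]
    refine sum_congr rfl fun k _ => ?_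
    rw [smul_smul, smul_smul]
    congr 1
    have := χ.2.apply_one_ne_zero
    field_simp
  · simp

theorem trace_isoProj (χ : IrrCharacter G) :
    (isoProj ρ χ).trace = (χ : G → ℂ) 1 * classInner (fun g => (ρ g).trace) χ := by
  simp only [isoProj, Matrix.trace_smul, Matrix.trace_sum, smul_eq_mul, classInner,
    χ.2.isCharacter.apply_inv, mul_comm ((ρ _).trace)]
  ring

theorem isoProj_eq_zero_iff (χ : IrrCharacter G) :
    isoProj ρ χ = 0 ↔ classInner (fun g => (ρ g).trace) χ = 0 := by
  classical
  have h := trace_isoProj ρ χ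
  constructor
  · intro h0
    rw [h0, Matrix.trace_zero] at h
    exact (mul_eq_zero.1 h.symm).resolve_left χ.2.apply_one_ne_zero
  · intro h0
    rw [h0, mul_zero, ← Matrix.trace_toLin'_eq] at h
    have hid : IsIdempotentElem (Matrix.toLin' (isoProj ρ χ)) := by
      rw [IsIdempotentElem, Module.End.mul_eq_comp, ← Matrix.toLin'_mul, isoProj_mul, if_pos rfl]
    exact (LinearEquiv.map_eq_zero_iff _).1 ((LinearMap.IsIdempotentElem.trace_eq_zero_iff hid).1 h)

/-- The centre of the commutant has dimension the number of irreducible constituents. -/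
theorem finrank_center_commutant :
    finrank ℂ (Subalgebra.center ℂ (Subalgebra.centralizer ℂ (Set.range ρ))) =
      Nat.card {χ : IrrCharacter G // classInner (fun g => (ρ g).trace) χ ≠ 0} := by
  classical
  have hG : (Nat.card G : ℂ) ≠ 0 := Nat.cast_ne_zero.2 Nat.card_pos.ne'
  let E := Subalgebra.centralizer ℂ (Set.range ρ)
  have hE : ∀ M, M ∈ E ↔ ∀ g, ρ g * M = M * ρ g := fun M => by
    rw [Subalgebra.mem_centralizer_iff, Set.forall_mem_range]
  have hcl : ∀ χ : IrrCharacter G, IsClassFunction G fun g => (χ : G → ℂ) g⁻¹ := fun χ g h => by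
    simpa [mul_assoc] using χ.2.isClassFunction g⁻¹ h
  have := Fintype.ofFinite {χ : IrrCharacter G // classInner (fun g => (ρ g).trace) χ ≠ 0}
  let v : {χ : IrrCharacter G // classInner (fun g => (ρ g).trace) χ ≠ 0} → Matrix X X ℂ :=
    fun χ => isoProj ρ χ.1
  have hli : LinearIndependent ℂ v := by
    rw [Fintype.linearIndependent_iff]
    intro c hc χ
    have := congrArg (· * v χ) hc
    simp only [sum_mul, smul_mul_assoc, v, isoProj_mul, zero_mul, smul_ite, smul_zero,
      Subtype.val_inj, sum_ite_eq', mem_univ, if_true] at this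
    exact (smul_eq_zero.1 this).resolve_right fun h => χ.2 ((isoProj_eq_zero_iff ρ _).1 h)
  rw [Nat.card_eq_fintype_card, ← finrank_span_eq_card hli]
  let φ : Subalgebra.center ℂ E →ₗ[ℂ] Matrix X X ℂ :=
    E.val.toLinearMap ∘ₗ (Subalgebra.center ℂ E).val.toLinearMap
  have hφ : Function.Injective φ := Subtype.val_injective.comp Subtype.val_injective
  rw [← LinearMap.finrank_range_of_inj hφ]
  suffices h : LinearMap.range φ = Submodule.span ℂ (Set.range v) by rw [h]
  apply le_antisymm
  · rintro _ ⟨⟨⟨z, hz⟩, hz'⟩, rfl⟩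
    change z ∈ _
    obtain ⟨a, ha⟩ := exists_eq_sum_of_comm ρ z fun M hM =>
      congrArg Subtype.val (Subalgebra.mem_center_iff.1 hz' ⟨M, (hE M).2 hM⟩)
    let a' : G → ℂ := fun g => (Nat.card G : ℂ)⁻¹ * ∑ h, a (h⁻¹ * g⁻¹ * h)
    have ha' : IsClassFunction G a' := fun g k => by
      simp only [a']
      congr 1
      exact Fintype.sum_equiv (Equiv.mulLeft k⁻¹) _ _ fun h => by simp [mul_assoc]
    have h1 : z = ∑ g, a' g⁻¹ • ρ g := by
      have h2 : ∀ h : G, z = ∑ g, a (h⁻¹ * g * h) • ρ g := by
        intro h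
        have : z = ρ h * z * ρ h⁻¹ := by
          rw [(hE z).1 hz, mul_assoc, ← map_mul, mul_inv_cancel, map_one, mul_one]
        rw [this, ha, mul_sum, sum_mul]
        refine Fintype.sum_equiv (MulAut.conj h).toEquiv _ _ fun g => ?_
        have e : (MulAut.conj h).toEquiv g = h * g * h⁻¹ := rfl
        rw [e, mul_smul_comm, smul_mul_assoc, ← map_mul, ← map_mul]
        simp [mul_assoc]
      simp only [a', inv_inv, mul_smul, sum_smul, ← smul_sum]
      rw [sum_comm, ← sum_congr rfl fun h _ => h2 h, sum_const, card_univ, ← Nat.card_eq_fintype_card,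
        ← Nat.cast_smul_eq_nsmul ℂ, smul_smul, inv_mul_cancel₀ hG, one_smul]
    have h3 : z = ∑ χ : IrrCharacter G,
        (classInner a' χ * Nat.card G / (χ : G → ℂ) 1) • isoProj ρ χ := by
      rw [h1]
      simp only [ha'.apply_eq_sum_irr, sum_smul, isoProj, smul_sum, smul_smul]
      rw [sum_comm]
      refine sum_congr rfl fun χ _ => sum_congr rfl fun g _ => ?_
      congr 1
      have := χ.2.apply_one_ne_zero
      field_simp
    rw [h3]
    refine Submodule.sum_mem _ fun χ _ => Submodule.smul_mem _ _ ?_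
    by_cases h : classInner (fun g => (ρ g).trace) χ = 0
    · rw [(isoProj_eq_zero_iff ρ χ).2 h]; exact zero_mem _
    · exact Submodule.subset_span ⟨⟨χ, h⟩, rfl⟩
  · rw [Submodule.span_le]
    rintro _ ⟨χ, rfl⟩
    refine ⟨⟨⟨isoProj ρ χ.1, (hE _).2 fun g => ?_⟩, Subalgebra.mem_center_iff.2 fun M => ?_⟩, rfl⟩
    · rw [isoProj, mul_smul_comm, smul_mul_assoc, sum_smul_comm_of_class ρ (hcl _)]
    · refine Subtype.ext ?_
      change (M : Matrix X X ℂ) * isoProj ρ χ.1 = isoProj ρ χ.1 * M
      simp only [isoProj, mul_smul_comm, smul_mul_assoc, mul_sum, sum_mul, (hE _).1 M.2]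

end general

section perm

variable (G X : Type*) [Group G] [MulAction G X] [Fintype X] [DecidableEq X]

/-- The permutation matrices of a group action. -/
def permMat : G →* Matrix X X ℂ where
  toFun g := Matrix.of fun x y => if x = g • y then 1 else 0
  map_one' := by ext x y; simp [Matrix.one_apply]
  map_mul' g h := by ext x y; simp [Matrix.mul_apply, mul_smul]

theorem permMat_eq_1' : type_of% @permMat.eq_1 := @permMat.eq_1

variable {G X}

theorem permMat_apply (g : G) (x y : X) : permMat G X g x y = if x = g • y then 1 else 0 := rfl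

theorem trace_permMat (g : G) :
    (permMat G X g).trace = (Nat.card (MulAction.fixedBy X g) : ℂ) := by
  simp only [Matrix.trace, Matrix.diag, permMat_apply, sum_boole, Nat.card_eq_fintype_card,
    Fintype.card_subtype, MulAction.mem_fixedBy, eq_comm]

theorem mem_commutant_iff {M : Matrix X X ℂ} :
    M ∈ Subalgebra.centralizer ℂ (Set.range (permMat G X)) ↔
      ∀ (g : G) x y, M (g • x) (g • y) = M x y := by
  rw [Subalgebra.mem_centralizer_iff, Set.forall_mem_range]
  refine forall_congr' fun g => ?_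
  have h1 : ∀ x y, (permMat G X g * M) x y = M (g⁻¹ • x) y := fun x y => by
    simp [Matrix.mul_apply, permMat_apply, ← inv_smul_eq_iff]
  have h2 : ∀ x y, (M * permMat G X g) x y = M x (g • y) := fun x y => by
    simp [Matrix.mul_apply, permMat_apply]
  constructor
  · intro h x y
    rw [← h2, ← h, h1, inv_smul_smul]
  · intro h
    ext x y
    rw [h1, h2, ← h, smul_inv_smul]

/-- The orbital algebra: dimension of the centre and vanishing of `HH¹`, in terms of structure
constants. -/
theorem orbital_rank [Fintype G] {ι : Type*} [Fintype ι] [DecidableEq ι] (d : X → X → ι)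
    (hd : ∀ x y x' y', d x y = d x' y' ↔ ∃ g : G, g • x = x' ∧ g • y = y')
    (hsurj : ∀ w, ∃ x y, d x y = w) (T : ι → Matrix X X ℂ)
    (hT : ∀ w x y, T w x y = if d x y = w then 1 else 0) {c : ι → ι → ι → ℂ}
    (hc : ∀ a b, T a * T b = ∑ k, c a b k • T k) :
    (D0 c).rank + (D1 c).rank = Fintype.card (ι × ι) ∧
    Nat.card {χ : IrrCharacter G //
      classInner (fun g : G => (Nat.card (MulAction.fixedBy X g) : ℂ)) χ ≠ 0} + (D0 c).rank =
        Fintype.card ι := by
  let E := Subalgebra.centralizer ℂ (Set.range (permMat G X))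
  have hinv : ∀ (g : G) x y, d (g • x) (g • y) = d x y := fun g x y =>
    ((hd _ _ _ _).2 ⟨g, rfl, rfl⟩).symm
  choose px py hp using hsurj
  let v : ι → E := fun w => ⟨T w, mem_commutant_iff.2 fun g x y => by rw [hT, hT, hinv]⟩
  have hsum : ∀ (a : ι → ℂ) x y, (∑ w, a w • T w) x y = a (d x y) := fun a x y => by
    simp [Matrix.sum_apply, hT]
  have hsum' : ∀ (a : ι → ℂ), ((∑ w, a w • v w : E) : Matrix X X ℂ) = ∑ w, a w • T w := fun a => by
    simp [v]
  have hli : LinearIndependent ℂ v := by
    rw [Fintype.linearIndependent_iff]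
    intro a ha w
    rw [← hp w, ← hsum a, ← hsum', ha]
    rfl
  have hsp : ⊤ ≤ Submodule.span ℂ (Set.range v) := by
    rintro ⟨M, hM⟩ -
    rw [Submodule.mem_span_range_iff_exists_fun]
    refine ⟨fun w => M (px w) (py w), Subtype.ext ?_⟩
    rw [hsum']
    ext x y
    rw [hsum]
    obtain ⟨g, h1, h2⟩ := (hd _ _ _ _).1 (hp (d x y))
    rw [← mem_commutant_iff.1 hM g, h1, h2]
  let b := Basis.mk hli hsp
  have hb : ∀ w, (b w : Matrix X X ℂ) = T w := fun w => by simp [b, v]
  have hc' : ∀ i j, b i * b j = ∑ k, c i j k • b k := fun i j => Subtype.ext (by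
    simp [hb, hc])
  refine ⟨rank_add_rank_of_inner b hc' ?_, ?_⟩
  · let n : ι → ℕ := fun w => (univ.filter fun p : X × X => d p.1 p.2 = w).card
    have hn : ∀ w, 0 < n w := fun w => card_pos.2 ⟨(px w, py w), by simp [hp]⟩
    let b' : ι → E := fun w => ⟨(n w : ℂ)⁻¹ • (T w).transpose, mem_commutant_iff.2 fun g x y => by
      simp only [Matrix.smul_apply, Matrix.transpose_apply, hT, hinv]⟩
    refine exists_inner_of_casimir b (Matrix.traceLinearMap X ℂ ℂ ∘ₗ E.val.toLinearMap)
      (fun x y => Matrix.trace_mul_comm _ _) b' (fun i j => ?_) ?_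
    · change ((b i : Matrix X X ℂ) * ((n j : ℂ)⁻¹ • (T j).transpose)).trace = _
      rw [hb, mul_smul_comm, Matrix.trace_smul]
      simp only [Matrix.trace, Matrix.diag, Matrix.mul_apply, Matrix.transpose_apply, hT,
        ite_zero_mul_ite_zero, mul_one, smul_eq_mul]
      rw [← Fintype.sum_prod_type' (f := fun x y => if d x y = i ∧ d x y = j then (1 : ℂ) else 0),
        sum_boole]
      split_ifs with h
      · subst h
        simp only [and_self]
        exact inv_mul_cancel₀ (Nat.cast_ne_zero.2 (hn i).ne')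
      · rw [filter_eq_empty_iff.2 fun p _ hp => h (hp.1.symm.trans hp.2)]
        simp
    · have := Module.Finite.of_basis b
      have := IsArtinianRing.of_finite ℂ E
      rw [IsArtinianRing.isUnit_iff_isRightRegular, isRightRegular_iff_left_eq_zero_of_mul]
      intro M hM
      have h1 : ∀ w, (T w).transpose = (T w).conjTranspose := fun w => by
        ext x y
        simp [hT, apply_ite]
      have h2 : ∑ w, (n w : ℂ)⁻¹ * (((M : Matrix X X ℂ) * T w) *
          ((M : Matrix X X ℂ) * T w).conjTranspose).trace = 0 := by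
        have := congrArg (fun N : E => ((N : Matrix X X ℂ) * (M : Matrix X X ℂ).conjTranspose).trace)
          hM
        simp only [MulMemClass.coe_mul, AddSubmonoidClass.coe_finsetSum, hb, b', h1, mul_sum,
          sum_mul, mul_smul_comm, smul_mul_assoc, Matrix.trace_sum, Matrix.trace_smul,
          ZeroMemClass.coe_zero, zero_mul, Matrix.trace_zero, smul_eq_mul] at this
        simpa only [Matrix.conjTranspose_mul, mul_assoc] using this
      rw [sum_eq_zero_iff_of_nonneg fun w _ => mul_nonneg (inv_nonneg.2 (Nat.cast_nonneg _))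
        (Matrix.posSemidef_self_mul_conjTranspose _).trace_nonneg] at h2
      have h3 : ∀ w, M * b w = 0 := fun w => Subtype.ext (by
        have := (mul_eq_zero.1 (h2 w (mem_univ w))).resolve_left
          (inv_ne_zero (Nat.cast_ne_zero.2 (hn w).ne'))
        rw [Matrix.trace_mul_conjTranspose_self_eq_zero_iff] at this
        rw [MulMemClass.coe_mul, hb, this]
        rfl)
      rw [← mul_one M, ← b.sum_repr 1]
      simp only [mul_sum, mul_smul_comm, h3, smul_zero, sum_const_zero]
  · rw [← finrank_center_add_rank b hc', finrank_center_commutant]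
    simp only [trace_permMat]

end perm

end Cfsg.Lib.Chev.Tits
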