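import Cfsg.Agent.Chev.EGCover
import Cfsg.Agent.Known.Kit4
import Cfsg.Agent.Known.KitSimple

/-!
# Enumeration of the big cell over the field with two elements
-/

set_option autoImplicit false

namespace Cfsg.Lib.Chev

open Cfsg.Lib.Known Cfsg.Lib.Known.PC

variable {W A ι : Type*} [Group W] [MulAction W A] {G : Type*} [Group G]

/-- `Q` holds at all products of elements of the `S i` with a given element. -/
def AllQ (S : ι → Set G) (Q : G → Prop) (ρ : List ι) : G → Prop :=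
  ρ.foldr (fun i Q z => ∀ x ∈ S i, Q (x * z)) Q

theorem AllQ_eq_1' : type_of% @AllQ.eq_1 := @AllQ.eq_1

namespace GRD.Faithful

variable {C : CoxSys W A ι} {Y : GRD C G} (hY : Y.Faithful) {n : ι → G} (hn : ∀ i, Y.Lifts (n i) (C.t i))
  {Q : G → Prop} {ω : List ι} (hω : C.Asc ω)
include hY hn hω

theorem of_allQ : ∀ u ∈ Y.U, wprod n ω * u * (wprod n ω)⁻¹ ∈ Y.V → ∀ z,
    AllQ (fun i => (n i * ·) '' Y.X (C.simple i)) Q ω.reverse z → Q (wprod n ω * u * z) := by
  induction ω using List.reverseRecOn with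
  | nil => exact fun u hu h z hz => by simpa [hY.UV u hu (by simpa using h), AllQ] using hz
  | append_singleton ω i ih =>
    intro u hu h z hz
    obtain ⟨r, hr, x, hx, rfl⟩ := exists_Rp (i := i) hu
    rw [List.reverse_append] at hz
    have h1 := mem_V (C.smul_mem _ (C.simple_mem i)) (by
      simpa [mul_smul, C.opp] using hω.of_snoc.2) (Y.conj (lifts_wprod hn (ω ++ [i])) (C.simple_mem i) hx)
    convert ih hω.of_snoc.1 _ (Rp_le (conj_mem_of_mem_normalizer (n_norm_Rp (hn i)) hr)) (by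
      convert mul_mem h (inv_mem h1) using 1
      simp [mul_assoc]) _ (hz _ ⟨x, hx, rfl⟩) using 1
    simp [mul_assoc]

theorem exists_of_allQ (h0 : spanX Y.X C.Φ ⊔ Y.H = ⊤) (hH : ∀ h ∈ Y.H, h = 1) (hab : ∀ i : ι, ∃ j, ∀ k, k = i ∨ k = j)
    (hw : ∀ i, ¬ C.Pos (wprod C.t ω • C.simple i))
    (hQ : ∀ s, (s = 1 ∨ ∃ i, s = n i) → AllQ (fun i => (n i * ·) '' Y.X (C.simple i)) Q ω.reverse s)
    {g : G} (hg : ∃ k, k * g * k⁻¹ ∉ Y.cell 1) : ∃ k, Q (k * g * k⁻¹) := by
  obtain ⟨k, w, hk, h1, h2⟩ := exists_top h0 g hg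
  obtain ⟨k', m, hm, u, hu, e⟩ := exists_conj_left hk
  have hN := lifts_wprod hn ω
  have h3 : ∀ {m'}, Y.Lifts m' w → m = m' := fun h =>
    mul_inv_eq_one.1 (hH _ (by simpa [mem_H] using Y.lifts_mul hm (Y.lifts_inv h)))
  have h4 := fun s hs => hY.of_allQ hn hω u hu (conj_span hN (fun r hr => ⟨hr.1, C.smul_mem _ hr.1, by
    simpa [C.neg_all _ hw r hr.1] using hr.2⟩) hu) s (hQ s hs)
  by_cases h : ∃ i, C.Pos (w • C.simple i)
  · obtain ⟨i, hi⟩ := h
    obtain ⟨j, hj⟩ := hab i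
    obtain rfl := h3 (m' := n i * wprod n ω) (by
      convert Y.lifts_mul (hn i) hN
      rw [← C.eq_of_neg (C.neg_of_eqv hj h2 (h1 i hi)) hw, C.conj_t _ _ _ (h1 i hi), ← mul_assoc, C.t_sq, one_mul])
    refine ⟨(n i)⁻¹ * k' * k, ?_⟩
    convert h4 _ (.inr ⟨i, rfl⟩) using 1
    calc _ = (n i)⁻¹ * (k' * (k * g * k⁻¹) * k'⁻¹) * n i := by group
      _ = _ := by rw [e]; group
  · obtain rfl := h3 (C.eq_of_neg hw (not_exists.1 h) ▸ hN)
    refine ⟨k' * k, ?_⟩
    convert h4 _ (.inl rfl) using 1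
    rw [mul_one, ← e]; group

omit hω in
theorem exists_conj_notMem' {T : Subgroup G} [T.Normal] [IsSimpleGroup T] {i : ι} (hi : n i ∈ T) {g : G}
    (hg : g ∈ T) (h1 : g ≠ 1) : ∃ k, k * g * k⁻¹ ∉ Y.cell 1 := by
  by_contra! h
  have h2 : g ∈ (Subgroup.normalizer (Y.U : Set G)).normalCore := fun k => by
    obtain ⟨a, ha, m, hm, b, hb, e⟩ := h k
    exact e ▸ mul_mem (mul_mem (Subgroup.le_normalizer ha) (le_normalizer_of_conj_mem
      (fun _ hh _ hu => conj_U hh hu) (show m ∈ Y.H from hm))) (Subgroup.le_normalizer hb)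
  rcases ((Subgroup.normalCore_normal (Subgroup.normalizer (Y.U : Set G))).subgroupOf T).eq_bot_or_eq_top with e | e
  · exact h1 (congrArg Subtype.val (e.le (show (⟨g, hg⟩ : T) ∈ _ from h2)))
  · have := hY.eq_one (hn i) fun u hu => conj_mem_of_mem_normalizer (Subgroup.normalCore_le _
      (e.ge (Subgroup.mem_top (⟨_, hi⟩ : T)))) hu
    exact C.not_pos_t i (by simpa [this] using C.pos_simple i)

end GRD.Faithful

theorem isConj_of_plane [Finite G] {p : ℕ} [hp : Fact p.Prime] {a b : G} (ha : orderOf a = p) (hb : b ^ p = 1)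
    (hab : Commute a b) (h : ∀ i < p, ∀ j < p, i + j ≠ 0 → IsConj a (a ^ i * b ^ j))
    (hG : (Nat.card G).factorization p = 2) {e : G} (he : orderOf e = p) : IsConj a e := by
  have ha' : a ^ p = 1 := ha ▸ pow_orderOf_eq_one a
  have h1 : Function.Injective (planeHom p ha' hb hab) := (injective_iff_map_eq_one _).2 fun v hv => by_contra fun h1 =>
    hp.out.one_lt.ne' (by rw [← ha, show a = 1 from isConj_one_left.1 (hv ▸ isConj_planeHom ha' hb hab h h1), orderOf_one])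
  obtain ⟨Q, hQ⟩ := (IsPGroup.of_card (n := 1) ((Nat.card_zpowers e).trans (he.trans (pow_one p).symm))).exists_le_sylow
  have h2 : Nat.card (planeHom p ha' hb hab).range = p ^ (Nat.card G).factorization p := by
    rw [← Nat.card_congr (MonoidHom.ofInjective h1).toEquiv, hG]; simp [sq]
  obtain ⟨k, hk⟩ := MulAction.exists_smul_eq G Q (Sylow.ofCard _ h2)
  obtain ⟨v, hv⟩ : k * e * k⁻¹ ∈ (planeHom p ha' hb hab).range := by
    rw [← Sylow.coe_ofCard _ h2, ← hk]
    exact Subgroup.smul_mem_pointwise_smul _ (MulAut.conj k) _ (hQ (Subgroup.mem_zpowers e))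
  refine (isConj_planeHom ha' hb hab h (v := v) ?_).trans (hv ▸ isConj_iff.2 ⟨k⁻¹, by group⟩)
  rintro rfl
  exact hp.out.one_lt.ne' (by rw [← he, conj_eq_one_iff.1 (hv.symm.trans (map_one _)), orderOf_one])

/-- Enumeration of products; the entries hold a code, a parity and a digit. -/
noncomputable def enumK (mul : ℕ → ℕ → ℕ) (k : ℕ → Bool → ℕ → Bool) (lv : List (List (ℕ × Bool × ℕ))) :
    ℕ → Bool → ℕ → Bool :=
  List.rec k (fun l _ ih g p i => frc g fun g => frc i fun i =>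
    lall (fun e => ih (mul e.1 g) (xor e.2.1 p) (Nat.add (Nat.mul i l.length) e.2.2)) l) lv

/-- A walk by conjugation with involutions. -/
noncomputable def walkK (one : ℕ) (mul : ℕ → ℕ → ℕ) (gs : List ℕ) (c W : ℕ) : ℕ → ℕ :=
  Nat.rec c fun i r => frc (nth one gs (Nat.land (Nat.shiftRight W (Nat.mul 2 i)) 3)) fun s => mul s (mul r s)

/-- The fifth power of `l r c` fixes the base. -/
noncomputable def leafK (app : ℕ → ℕ → ℕ) (base : List ℕ) (tab : ℕ → ℕ) (W r l : ℕ) (p : Bool) (i : ℕ) : Bool :=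
  Bool.rec (frc l fun l => frc (Nat.land (Nat.shiftRight W (Nat.mul 8 (Nat.div i 2))) 255) fun j => frc (tab j) fun c =>
    lall (fun b => Nat.beq (iterC (fun v => app l (app r (app c v))) 5 b) b) base) true p

/-- The whole check. -/
noncomputable def treeChk (O : Ops) (base gs : List ℕ) (lv : List (List (ℕ × Bool × ℕ))) (c s W W' : ℕ) : Bool :=
  Ops.rec (fun one mul _ app _ _ _ => enumK mul (fun r p i => frc r fun r =>
    enumK mul (leafK app base (walkK one mul gs c W) W' r) lv one p i) lv s false 0) O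

theorem enumK_eq_1' : type_of% @enumK.eq_1 := @enumK.eq_1
theorem walkK_eq_1' : type_of% @walkK.eq_1 := @walkK.eq_1
theorem leafK_eq_1' : type_of% @leafK.eq_1 := @leafK.eq_1
theorem treeChk_eq_1' : type_of% @treeChk.eq_1 := @treeChk.eq_1

variable {Ω : Type*} {M : Known.Model G Ω} {T : Subgroup G} (hT : T.index = 2) {S : ι → Set G}
  {lv : ι → List (ℕ × Bool × ℕ)} (hS : ∀ i, ∀ x ∈ S i, ∃ e ∈ lv i, M.R e.1 x ∧ (x ∈ T ↔ e.2.1 = false))

theorem walkK_spec {gs : List ℕ} (hg : ∀ c ∈ gs, ∃ g, M.R c g ∧ g * g = 1) {c : ℕ}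
    (hc : ∃ x, M.R c x ∧ orderOf x = 5) (W j : ℕ) : ∃ x, M.R (walkK M.one M.mul gs c W j) x ∧ orderOf x = 5 := by
  induction j with
  | zero => exact hc
  | succ j ih =>
    obtain ⟨x, h1, h2⟩ := ih
    obtain ⟨g, h3, h4⟩ : ∃ g, M.R (nth M.one gs (Nat.land (Nat.shiftRight W (Nat.mul 2 j)) 3)) g ∧ g * g = 1 := by
      rw [nth_eq, List.getD_eq_getElem?_getD]
      cases e : gs[Nat.land (Nat.shiftRight W (Nat.mul 2 j)) 3]? with
      | none => exact ⟨1, M.R_one, one_mul 1⟩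
      | some c => exact hg c (List.mem_of_getElem? e)
    refine ⟨_, M.R_mul h3 (M.R_mul h1 h3), ?_⟩
    rw [← h2, ← (MulAut.conj g).orderOf_eq x, MulAut.conj_apply, ← eq_inv_of_mul_eq_one_left h4, mul_assoc]

include hT hS

theorem enumK_spec {k : ℕ → Bool → ℕ → Bool} {Q : G → Prop} {z : G}
    (hk : ∀ g p i x, M.R g x → (x * z ∈ T ↔ p = false) → k g p i = true → Q (x * z)) (ρ : List ι) :
    ∀ g p i x, M.R g x → (x * z ∈ T ↔ p = false) → enumK M.mul k (ρ.map lv) g p i = true → AllQ S Q ρ (x * z) := by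
  induction ρ with
  | nil => exact hk
  | cons j ρ ih =>
    intro g p i x hx hp h y hy
    obtain ⟨e, he, h1, h2⟩ := hS j y hy
    rw [← mul_assoc]
    refine ih _ _ _ _ (M.R_mul h1 hx) ?_ (lall_iff.1 h e he)
    rw [mul_assoc, Subgroup.mul_mem_iff_of_index_two hT, h2, hp]
    cases p <;> simp

theorem treeChk_spec {O : Ops} (h : M.Has O) {base gs : List ℕ} (hb : ∀ g ∈ T, g ∈ M.fixer base → g = 1)
    (hg : ∀ c ∈ gs, ∃ g, M.R c g ∧ g * g = 1) {c s W W' : ℕ} (hc : ∃ x, M.R c x ∧ orderOf x = 5) {z : G}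
    (hs : M.R s z) (hz : z ∈ T) {ρ : List ι} (e : treeChk O base gs (ρ.map lv) c s W W' = true) :
    AllQ S (fun g => g ∈ T → ∃ x, orderOf x = 5 ∧ (g * x) ^ 5 = 1) (ρ ++ ρ) z := by
  rw [h.eq] at e
  rw [AllQ, List.foldr_append, ← mul_one z]
  refine enumK_spec hT hS (fun r p i x hx hp e => ?_) ρ _ _ _ _ hs (by simpa) e
  rw [mul_one] at hp ⊢
  rw [← one_mul x] at hp ⊢
  refine enumK_spec hT hS (fun l p i y hy hp e h1 => ?_) ρ _ _ _ _ M.R_one hp e
  obtain rfl := hp.1 h1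
  obtain ⟨a, h2, h3⟩ := walkK_spec hg hc W (Nat.land (Nat.shiftRight W' (Nat.mul 8 (Nat.div i 2))) 255)
  refine ⟨a, h3, hb _ (pow_mem (mul_mem h1 ?_) _) fun b hb ω hω => M.P_fun ?_ hω⟩
  · have := Subgroup.sq_mem_of_index_two hT (a ^ 3)
    rwa [← pow_mul, pow_succ a 5, ← h3, pow_orderOf_eq_one, one_mul] at this
  · rw [← Nat.eq_of_beq_eq_true (lall_iff.1 e b hb)]
    refine Known.Model.Acts.iter (fun v η hv => ?_) 5 b ω hω
    rw [map_mul, map_mul]
    exact M.P_app hy (M.P_app hx (M.P_app h2 hv))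

end Cfsg.Lib.Chev
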