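import Cfsg.Agent.Chev.CoreAll
import Cfsg.Agent.Chev.StructMat

/-!
# Generation of a Chevalley group by `N` and few root subgroups
-/

set_option autoImplicit false
set_option linter.unusedSectionVars false

namespace Cfsg.Lib.Chev

section
variable {ι A : Type} [Fintype ι] [DecidableEq ι] [DecidableEq A] {G : Type*} [Group G]
  {R : WeylData ι A}

theorem WeylData.s_s_smul_simple (R : WeylData ι A) {i j : ι} (h1 : R.C i j = -1)
    (h2 : R.C j i = -1) : (R.s i * R.s j) • R.simple i = R.simple j := by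
  refine R.rc_inj _ (R.smul_mem _ (R.simple_mem i)) _ (R.simple_mem j) ?_
  rw [R.rc_smul _ (R.simple_mem i), R.lin_mul_apply, R.lin_s, R.lin_s, R.rc_simple, R.rc_simple,
    R.sl_apply j, R.a_single, h2, map_sub, map_smul, R.sl_single, R.sl_apply, R.a_single, h1]
  simp

namespace RGD

variable (Y : RGD R G) {M : Subgroup G}

theorem X_smul_le (hN : Y.N ≤ Subgroup.normalizer (M : Set G)) {r : A} (hr : r ∈ R.Φ)
    (h : Y.X r ≤ M) (w : R.W) : Y.X (w • r) ≤ M := by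
  obtain ⟨m, hm⟩ := Y.exists_lifts w
  rw [← hm.map_X hr]
  rintro _ ⟨a, ha, rfl⟩
  exact conj_mem_of_mem_normalizer (hN hm.mem_N) (h ha)

theorem X_simple_le_of_bond (hN : Y.N ≤ Subgroup.normalizer (M : Set G)) {i j : ι}
    (h1 : R.C i j = -1) (h2 : R.C j i = -1) (h : Y.X (R.simple i) ≤ M) : Y.X (R.simple j) ≤ M :=
  R.s_s_smul_simple h1 h2 ▸ Y.X_smul_le hN (R.simple_mem i) h _

theorem X_simple_le_of_laced (hN : Y.N ≤ Subgroup.normalizer (M : Set G))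
    (hc : ∀ J : Set ι, J.Nonempty → Jᶜ.Nonempty → ∃ i ∈ J, ∃ j ∉ J, R.C i j ≠ 0)
    (hl : ∀ i j, i ≠ j → R.C i j = 0 ∨ (R.C i j = -1 ∧ R.C j i = -1)) {i : ι}
    (h : Y.X (R.simple i) ≤ M) (j : ι) : Y.X (R.simple j) ≤ M := by
  by_contra hj
  obtain ⟨k, hk, l, hl', hC⟩ := hc {j | Y.X (R.simple j) ≤ M} ⟨i, h⟩ ⟨j, hj⟩
  have := (hl k l fun e => hl' (e ▸ hk)).resolve_left hC
  exact hl' (Y.X_simple_le_of_bond hN this.1 this.2 hk)

theorem G0_le_of_N (hN : Y.N ≤ M) (h : ∀ i, Y.X (R.simple i) ≤ M) : Y.G0 ≤ M :=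
  sup_le (spanX_le_iff.2 fun _ hr => Y.X_le_of_simple (hN.trans Subgroup.le_normalizer) h hr)
    (Y.H_le_N.trans hN)

end RGD

end

namespace Core.Cert

open Cfsg.Lie

variable {F : Type*} [Field F] {D : ChevalleyDatum} (C : Cert D) (R : RootData D)
  {M : Subgroup (GL D.Idx F)}
include C R

theorem xSub_reflect_le (hN : (C.Y F R).N ≤ Subgroup.normalizer (M : Set (GL D.Idx F))) {r s : ℕ}
    (i : Fin D.rank) (hr : r < D.nroots ∧ D.reflectRoot i r = s) (h : xSub (xGL D F) r ≤ M) :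
    xSub (xGL D F) s ≤ M := by
  rw [← hr.2, ← R.weyl_s_smul i hr.1]
  exact (C.Y F R).X_smul_le hN (R.weyl_mem.2 hr.1) h _

theorem xSub_le_of_comm {r s k : ℕ} {c : ℤ} (hrs : r < D.nroots ∧ s < D.nroots ∧ k < D.nroots ∧ s ≠ r ∧
    s ≠ D.neg r ∧ D.commTerms r s = [(k, c, 1, 1)]) (hc : (c : F) ≠ 0) (h1 : xSub (xGL D F) r ≤ M)
    (h2 : xSub (xGL D F) s ≤ M) : xSub (xGL D F) k ≤ M := by
  obtain ⟨hr, hs, hk, e1, e2, e3⟩ := hrs
  intro a ha
  obtain ⟨t, rfl⟩ := ((C.stRelN F R).mem_xSub_iff hk).1 ha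
  have h3 := (C.stRelN F R).comm r s hr hs e1 e2 (-1) (t / c)
  simp only [ChevalleyDatum.commWord, e3, List.map_cons, List.map_nil, neg_neg, pow_one, mul_one,
    mul_div_cancel₀ _ hc, word_cons, word_nil] at h3
  have h4 := h1 (x_mem_xSub _ r (-1))
  have h5 := h2 (x_mem_xSub _ s (t / c))
  rw [← inv_mul_eq_iff_eq_mul] at h3
  rw [← h3]
  exact mul_mem (inv_mem (mul_mem h4 h5)) (mul_mem h5 h4)

end Core.Cert

end Cfsg.Lib.Chev
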