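import Cfsg.Agent.Chev.Commutant
import Cfsg.Agent.Chev.PreCoxParab
import Cfsg.Agent.Chev.BNSteinberg

/-!
# The generic Iwahori–Hecke algebra (equal parameters) and Tits' deformation theorem

For a finite group with a BN-pair all of whose parameters are equal, the permutation character on
`G / B` has as many irreducible constituents as the Weyl group has conjugacy classes.
-/

set_option autoImplicit false
set_option linter.unusedSectionVars false
set_option maxHeartbeats 400000

namespace Cfsg.Lib.Chev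

open Finset

namespace PreCox

variable {I W : Type*} [Group W] (C : PreCox I W) [Fintype W] [DecidableEq W]
  {R : Type*} [CommRing R]

open Classical in
/-- The product `T_s T_w` in the generic Hecke algebra. -/
noncomputable def hkL (v : R) (i : I) (w : W) : W → R :=
  if w ∈ C.P i then Pi.single (C.s i * w) 1
  else v • Pi.single (C.s i * w) 1 + (v - 1) • Pi.single w 1

open Classical in
/-- The product `T_w T_s` in the generic Hecke algebra. -/
noncomputable def hkR (v : R) (i : I) (w : W) : W → R :=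
  if w⁻¹ ∈ C.P i then Pi.single (w * C.s i) 1
  else v • Pi.single (w * C.s i) 1 + (v - 1) • Pi.single w 1

/-- Left multiplication by `T_s`. -/
noncomputable def hkLm (v : R) (i : I) : Matrix W W R := Matrix.of fun k w => C.hkL v i w k

/-- Right multiplication by `T_s`. -/
noncomputable def hkRm (v : R) (i : I) : Matrix W W R := Matrix.of fun k w => C.hkR v i w k

/-- Left multiplication by `T_a`. -/
noncomputable def hkW (v : R) (a : W) : Matrix W W R :=
  ((C.exists_red a).choose.map (C.hkLm v)).prod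

/-- The structure constants of the generic Hecke algebra. -/
noncomputable def hkc (v : R) (a b k : W) : R := C.hkW v a k b

theorem hkL_eq_1' : type_of% @hkL.eq_1 := @hkL.eq_1
theorem hkR_eq_1' : type_of% @hkR.eq_1 := @hkR.eq_1
theorem hkLm_eq_1' : type_of% @hkLm.eq_1 := @hkLm.eq_1
theorem hkRm_eq_1' : type_of% @hkRm.eq_1 := @hkRm.eq_1
theorem hkW_eq_1' : type_of% @hkW.eq_1 := @hkW.eq_1
theorem hkc_eq_1' : type_of% @hkc.eq_1 := @hkc.eq_1

variable (v : R)

theorem hkLm_single (i : I) (w : W) : (C.hkLm v i).mulVec (Pi.single w 1) = C.hkL v i w := by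
  rw [Matrix.mulVec_single_one]; rfl

theorem hkRm_single (i : I) (w : W) : (C.hkRm v i).mulVec (Pi.single w 1) = C.hkR v i w := by
  rw [Matrix.mulVec_single_one]; rfl

variable {C}

theorem hkL_of_mem {i : I} {w : W} (h : w ∈ C.P i) : C.hkL v i w = Pi.single (C.s i * w) 1 :=
  if_pos h

theorem hkL_of_not_mem {i : I} {w : W} (h : w ∉ C.P i) :
    C.hkL v i w = v • Pi.single (C.s i * w) 1 + (v - 1) • Pi.single w 1 := if_neg h

theorem hkR_of_mem {i : I} {w : W} (h : w⁻¹ ∈ C.P i) : C.hkR v i w = Pi.single (w * C.s i) 1 :=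
  if_pos h

theorem hkR_of_not_mem {i : I} {w : W} (h : w⁻¹ ∉ C.P i) :
    C.hkR v i w = v • Pi.single (w * C.s i) 1 + (v - 1) • Pi.single w 1 := if_neg h

variable (C)

theorem hkLm_comm (i j : I) : C.hkLm v i * C.hkRm v j = C.hkRm v j * C.hkLm v i := by
  refine Matrix.ext_of_mulVec_single fun w => ?_
  rw [← Matrix.mulVec_mulVec, ← Matrix.mulVec_mulVec, hkLm_single, hkRm_single]
  have e1 := C.len_s_mul i w
  have e2 := C.len_mul_s j w
  have e3 := C.len_s_mul i (w * C.s j)
  have e4 := C.len_mul_s j (C.s i * w)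
  rw [← mul_assoc] at e3
  by_cases h1 : w ∈ C.P i <;> by_cases h2 : w⁻¹ ∈ C.P j
  · rw [hkL_of_mem v h1, hkR_of_mem v h2, hkLm_single, hkRm_single]
    by_cases h3 : w * C.s j ∈ C.P i
    · have h4 : (C.s i * w)⁻¹ ∈ C.P j := by
        rw [inv_mem_P_iff] at h2 ⊢
        rw [mem_P_iff, ← mul_assoc] at h3
        omega
      rw [hkL_of_mem v h3, hkR_of_mem v h4, mul_assoc]
    · have e := C.step i j w h1 h3
      have h4 : (C.s i * w)⁻¹ ∉ C.P j := by
        rw [inv_not_mem_P_iff, e, mul_s_mul_s]
        exact C.inv_mem_P_iff.1 h2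
      rw [hkL_of_not_mem v h3, hkR_of_not_mem v h4, mul_assoc, e]
  · have h3 : w * C.s j ∈ C.P i := by
      rw [inv_not_mem_P_iff] at h2
      rw [mem_P_iff] at h1 ⊢
      rw [← mul_assoc]
      omega
    have h4 : (C.s i * w)⁻¹ ∉ C.P j := by
      rw [inv_not_mem_P_iff] at h2 ⊢
      rw [mem_P_iff] at h1
      omega
    rw [hkL_of_mem v h1, hkR_of_not_mem v h2, hkRm_single, Matrix.mulVec_add, Matrix.mulVec_smul,
      Matrix.mulVec_smul, hkLm_single, hkLm_single, hkL_of_mem v h3, hkL_of_mem v h1,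
      hkR_of_not_mem v h4, mul_assoc]
  · have h3 : w * C.s j ∉ C.P i := by
      rw [inv_mem_P_iff] at h2
      rw [not_mem_P_iff] at h1 ⊢
      rw [← mul_assoc]
      omega
    have h4 : (C.s i * w)⁻¹ ∈ C.P j := by
      rw [inv_mem_P_iff] at h2 ⊢
      rw [not_mem_P_iff] at h1
      omega
    rw [hkL_of_not_mem v h1, hkR_of_mem v h2, hkLm_single, Matrix.mulVec_add, Matrix.mulVec_smul,
      Matrix.mulVec_smul, hkRm_single, hkRm_single, hkR_of_mem v h4, hkR_of_mem v h2,
      hkL_of_not_mem v h3, mul_assoc]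
  · rw [hkL_of_not_mem v h1, hkR_of_not_mem v h2]
    simp only [Matrix.mulVec_add, Matrix.mulVec_smul, hkLm_single, hkRm_single]
    rw [hkL_of_not_mem v h1, hkR_of_not_mem v h2]
    by_cases h3 : w * C.s j ∈ C.P i
    · have e := C.step i j _ h3 (by rwa [mul_s_mul_s])
      rw [mul_s_mul_s] at e
      have e' : C.s i * w = w * C.s j := by
        conv_lhs => rw [← e]
        rw [s_mul_s_mul]
      have h4 : (C.s i * w)⁻¹ ∈ C.P j := by
        rw [inv_mem_P_iff, e', mul_s_mul_s]
        exact C.inv_not_mem_P_iff.1 h2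
      rw [hkL_of_mem v h3, hkR_of_mem v h4, mul_assoc, e']
    · have h4 : (C.s i * w)⁻¹ ∉ C.P j := by
        rw [inv_not_mem_P_iff] at h2 ⊢
        rw [not_mem_P_iff, ← mul_assoc] at h3
        omega
      rw [hkL_of_not_mem v h3, hkR_of_not_mem v h4, mul_assoc]
      module

theorem prod_hkLm_single {ω : List I} (hω : C.Red ω) :
    (ω.map (C.hkLm v)).prod.mulVec (Pi.single 1 1) = Pi.single (C.wp ω) 1 := by
  induction ω with
  | nil => rw [List.map_nil, List.prod_nil, Matrix.one_mulVec, wp_nil]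
  | cons i ω ih =>
    rw [List.map_cons, List.prod_cons, ← Matrix.mulVec_mulVec, ih hω.tail, hkLm_single,
      hkL_of_mem v (C.red_cons_iff.1 hω).2, wp_cons]

theorem hkW_single (a : W) : (C.hkW v a).mulVec (Pi.single 1 1) = Pi.single a 1 := by
  rw [hkW, C.prod_hkLm_single v (C.exists_red a).choose_spec.1, (C.exists_red a).choose_spec.2]

theorem hkW_comm (a : W) (j : I) : C.hkW v a * C.hkRm v j = C.hkRm v j * C.hkW v a :=
  Commute.list_prod_left _ _ fun M hM => by
    obtain ⟨i, -, rfl⟩ := List.mem_map.1 hM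
    exact C.hkLm_comm v i j

theorem eq_zero_of_comm_hkRm {M : Matrix W W R} (hM : ∀ j, M * C.hkRm v j = C.hkRm v j * M)
    (h1 : M.mulVec (Pi.single 1 1) = 0) : M = 0 := by
  have key : ∀ w : W, M.mulVec (Pi.single w⁻¹ 1) = 0 := by
    intro w
    induction w using C.induction_left with
    | one => simpa using h1
    | step i w hw ih =>
      rw [mul_inv_rev, inv_s, ← hkR_of_mem v (by rwa [inv_inv]), ← hkRm_single,
        Matrix.mulVec_mulVec, hM, ← Matrix.mulVec_mulVec, ih, Matrix.mulVec_zero]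
  refine Matrix.ext_of_mulVec_single fun w => ?_
  rw [Matrix.zero_mulVec, ← key w⁻¹, inv_inv]

theorem hkW_mul (a b : W) : C.hkW v a * C.hkW v b = ∑ m, C.hkc v a b m • C.hkW v m := by
  rw [← sub_eq_zero]
  refine C.eq_zero_of_comm_hkRm v (fun j => ?_) ?_
  · simp only [sub_mul, mul_sub, sum_mul, mul_sum, smul_mul_assoc, mul_smul_comm, hkW_comm]
    rw [mul_assoc, hkW_comm, ← mul_assoc, hkW_comm, mul_assoc]
  · rw [Matrix.sub_mulVec, ← Matrix.mulVec_mulVec, hkW_single, Matrix.sum_mulVec]
    simp only [Matrix.smul_mulVec, hkW_single]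
    ext k
    simp [hkc, Pi.single_apply]

theorem assoc_hkc : Tits.Assoc (C.hkc v) := by
  intro a b d k
  have := congrFun (congrFun (C.hkW_mul v a b) k) d
  simp only [Matrix.mul_apply, Matrix.sum_apply, Matrix.smul_apply, smul_eq_mul] at this
  simp only [hkc] at this ⊢
  rw [← this]
  exact sum_congr rfl fun m _ => mul_comm _ _

theorem map_hkc {S : Type*} [CommRing S] (φ : R →+* S) (a b k : W) :
    φ (C.hkc v a b k) = C.hkc (φ v) a b k := by
  have h1 : ∀ i, φ.mapMatrix (C.hkLm v i) = C.hkLm (φ v) i := by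
    intro i
    ext k w
    simp only [RingHom.mapMatrix_apply, Matrix.map_apply, hkLm, Matrix.of_apply, hkL]
    split_ifs <;> simp [Pi.single_apply, apply_ite φ]
  have h2 : φ.mapMatrix (C.hkW v a) = C.hkW (φ v) a := by
    rw [hkW, hkW, map_list_prod, List.map_map]
    congr 2
    exact funext h1
  rw [hkc, hkc, ← h2]
  rfl

open Classical in
/-- A family with the Iwahori–Matsumoto relations has the generic structure constants. -/
theorem mul_eq_sum_hkc {A : Type*} [Ring A] [Algebra R A] (T : W → A) (h1 : T 1 = 1)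
    (hT : ∀ i w, T (C.s i) * T w =
      if w ∈ C.P i then T (C.s i * w) else v • T (C.s i * w) + (v - 1) • T w) (a b : W) :
    T a * T b = ∑ k, C.hkc v a b k • T k := by
  let Φ : (W → R) →ₗ[R] A := Fintype.linearCombination R T
  have hΦ : ∀ w, Φ (Pi.single w 1) = T w := fun w => by simp [Φ]
  have h2 : ∀ i f, T (C.s i) * Φ f = Φ ((C.hkLm v i).mulVec f) := by
    intro i f
    have : LinearMap.mulLeft R (T (C.s i)) ∘ₗ Φ = Φ ∘ₗ (C.hkLm v i).mulVecLin := by
      refine LinearMap.pi_ext' fun w => LinearMap.ext_ring ?_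
      simp only [LinearMap.comp_apply, LinearMap.coe_single, LinearMap.mulLeft_apply,
        Matrix.mulVecLin_apply, hkLm_single, hΦ, hT]
      split_ifs with h
      · rw [hkL_of_mem v h, hΦ]
      · rw [hkL_of_not_mem v h, map_add, map_smul, map_smul, hΦ, hΦ]
    exact LinearMap.congr_fun this f
  have h3 : ∀ ω : List I, C.Red ω → ∀ f, T (C.wp ω) * Φ f = Φ ((ω.map (C.hkLm v)).prod.mulVec f) := by
    intro ω hω f
    induction ω with
    | nil => simp [h1]
    | cons i ω ih =>
      rw [List.map_cons, List.prod_cons, ← Matrix.mulVec_mulVec, ← h2, ← ih hω.tail, ← mul_assoc,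
        hT, if_pos (C.red_cons_iff.1 hω).2, wp_cons]
  have := h3 _ (C.exists_red a).choose_spec.1 (Pi.single b 1)
  rw [(C.exists_red a).choose_spec.2, hΦ, Matrix.mulVec_single_one] at this
  rw [this, Fintype.linearCombination_apply]
  rfl

theorem card_conjClasses_add_rank :
    (Tits.D0 (C.hkc (1 : ℂ))).rank + (Tits.D1 (C.hkc (1 : ℂ))).rank = Fintype.card (W × W) ∧
    Nat.card (ConjClasses W) + (Tits.D0 (C.hkc (1 : ℂ))).rank = Fintype.card W := by
  classical
  have h := Tits.orbital_rank (G := W) (X := W) (fun x y => x⁻¹ * y) ?_ (fun w => ⟨1, w, by simp⟩)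
    (fun w => Matrix.of fun x y => if x⁻¹ * y = w then (1 : ℂ) else 0) (fun _ _ _ => rfl)
    (c := C.hkc (1 : ℂ)) (C.mul_eq_sum_hkc 1 _ ?_ ?_)
  · refine ⟨h.1, ?_⟩
    rw [← h.2, ← Char.card_irr_eq_card_conjClasses]
    congr 1
    refine (Nat.card_congr (Equiv.subtypeUnivEquiv fun χ => ?_)).symm
    rw [classInner, sum_eq_single 1]
    · simp [χ.2.apply_one_ne_zero]
    · intro g _ hg
      have : MulAction.fixedBy W g = ∅ := by
        ext x; simp [hg]
      simp [this]
    · simp
  · intro x y x' y'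
    constructor
    · intro h
      refine ⟨x' * x⁻¹, by simp, ?_⟩
      rw [smul_eq_mul, mul_assoc, h, mul_inv_cancel_left]
    · rintro ⟨g, rfl, rfl⟩
      simp [mul_assoc]
  · ext x y
    simp [Matrix.one_apply, inv_mul_eq_one]
  · intro i w
    simp only [one_smul, sub_self, zero_smul, add_zero, ite_self]
    ext x y
    simp only [Matrix.mul_apply, Matrix.of_apply, inv_mul_eq_iff_eq_mul, ite_mul, one_mul, zero_mul,
      sum_ite_eq', mem_univ, if_true, mul_assoc]

end PreCox

namespace BN

variable {G : Type*} [Group G] (P : Cfsg.BNPair G)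

/-- Tits' deformation theorem: with equal parameters, the permutation character on `G / B` has as
many constituents as the Weyl group has conjugacy classes. -/
theorem card_constituents [Fintype G] {q : ℕ} (hq : ∀ i, param P i = q) :
    Nat.card {χ : IrrCharacter G // classInner (fixedPointCharacter P.B) χ ≠ 0} =
      Nat.card (ConjClasses (W P)) := by
  classical
  have := Fintype.ofFinite (G ⧸ P.B)
  have h := Tits.orbital_rank (G := G) (X := G ⧸ P.B) (dist P) ?_ ?_ (heckeT P ℂ)
    (fun w x y => by rw [heckeT_apply]) (c := (preCox P).hkc (q : ℂ))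
    ((preCox P).mul_eq_sum_hkc _ _ (heckeT_one P ℂ) ?_)
  · have h' := (preCox P).card_conjClasses_add_rank
    have e : ∀ a : ℂ, (preCox P).hkc a =
        fun i j k => ((preCox P).hkc (Polynomial.X : Polynomial ℂ) i j k).eval a := by
      intro a
      funext i j k
      have := (preCox P).map_hkc Polynomial.X (Polynomial.evalRingHom a) i j k
      simpa using this.symm
    rw [e] at h h'
    rw [Tits.rank_D0_eq ((preCox P).assoc_hkc _) h.1] at h
    rw [Tits.rank_D0_eq ((preCox P).assoc_hkc _) h'.1] at h'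
    exact Nat.add_right_cancel (h.2.trans h'.2.symm)
  · intro x y x' y'
    refine ⟨exists_smul_of_dist_eq, ?_⟩
    rintro ⟨g, rfl, rfl⟩
    exact (dist_smul g x y).symm
  · intro w
    obtain ⟨g, hg⟩ := cell_nonempty P w
    exact ⟨((1 : G) : G ⧸ P.B), g, by rw [dist_one_mk, cellOf_eq_iff]; exact hg⟩
  · intro i w
    rw [preCox_s]
    split_ifs with h
    · exact heckeT_mul_of_mem_P P ℂ h
    · have h1 : sg P i * w ∈ (preCox P).P i := by
        rw [(preCox P).mem_P_iff_s_mul_not_mem, ← preCox_s, PreCox.s_mul_s_mul]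
        exact h
      have h2 := heckeT_mul_of_mem_P P ℂ h1
      rw [← mul_assoc, sg_sq, one_mul] at h2
      rw [← h2, ← mul_assoc, heckeT_sq, hq, add_mul, smul_mul_assoc, smul_mul_assoc, one_mul,
        add_comm]

end BN

end Cfsg.Lib.Chev
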