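import Mathlib
import Cfsg.Prelude.Def_LinearParabolics

/-! Steinberg character of `GL_n(q)` at semisimple elements, I: the Hessenberg determinant and
Moebius functions of graded posets. -/

set_option autoImplicit false

namespace Cfsg.Lib.Chev.StGL

open Finset Equiv

section Hess

variable {R : Type*} [Ring R] (T : ℕ → R)

/-- ordered Hessenberg determinant -/
noncomputable def hE (m a : ℕ) : R :=
  ∑ κ : Perm (Fin m), if ∀ i : Fin m, (κ i).val ≤ 1 + i.val then
    ((Perm.sign κ : ℤ) : R) *
      (List.ofFn fun i : Fin m => T (1 + i.val - (κ i).val + if (κ i).val = 0 then a else 0)).prod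
    else 0

theorem hE_eq_1' : type_of% @hE.eq_1 := @hE.eq_1

theorem hE_zero (a : ℕ) : hE T 0 a = 1 := by
  simp [hE]

theorem hE_one (a : ℕ) : hE T 1 a = T (1 + a) := by
  simp [hE]

theorem hE_succ (hT : T 0 = 1) (m a : ℕ) :
    hE T (m + 2) a = T (1 + a) * hE T (m + 1) 0 - hE T (m + 1) (a + 1) := by
  unfold hE
  rw [← Equiv.sum_comp (Perm.decomposeFin (n := m + 1)).symm, Fintype.sum_prod_type,
    Fin.sum_univ_succ, Fin.sum_univ_succ]
  have h3 : ∑ i : Fin m, ∑ e : Perm (Fin (m + 1)),
      (if ∀ j : Fin (m + 2), ((Perm.decomposeFin.symm (i.succ.succ, e)) j).val ≤ 1 + j.val then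
        ((Perm.sign (Perm.decomposeFin.symm (i.succ.succ, e)) : ℤ) : R) *
          (List.ofFn fun j : Fin (m + 2) => T (1 + j.val -
            ((Perm.decomposeFin.symm (i.succ.succ, e)) j).val +
              if ((Perm.decomposeFin.symm (i.succ.succ, e)) j).val = 0 then a else 0)).prod
        else 0) = 0 := by
    refine Finset.sum_eq_zero fun i _ => Finset.sum_eq_zero fun e _ => if_neg fun h => ?_
    have := h 0
    rw [Perm.decomposeFin_symm_apply_zero] at this
    simp at this
  rw [h3, add_zero, Finset.mul_sum, sub_eq_add_neg, ← Finset.sum_neg_distrib]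
  congr 1
  · refine Finset.sum_congr rfl fun e _ => ?_
    have hv : ∀ j : Fin (m + 1),
        ((Perm.decomposeFin.symm ((0 : Fin (m + 2)), e)) j.succ).val = (e j).val + 1 := by
      intro j
      rw [Perm.decomposeFin_symm_apply_succ]; simp
    have hc : (∀ j : Fin (m + 2), ((Perm.decomposeFin.symm ((0 : Fin (m + 2)), e)) j).val ≤
        1 + j.val) ↔ ∀ j : Fin (m + 1), (e j).val ≤ 1 + j.val := by
      rw [Fin.forall_fin_succ, Perm.decomposeFin_symm_apply_zero]
      simp only [hv, Fin.val_succ, Fin.val_zero]
      exact ⟨fun h j => by have := h.2 j; omega, fun h => ⟨by omega, fun j => by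
        have := h j; omega⟩⟩
    have hl : (List.ofFn fun j : Fin (m + 1) => T (1 + j.succ.val - ((e j).val + 1) +
        if (e j).val + 1 = 0 then a else 0)) = List.ofFn fun j : Fin (m + 1) =>
        T (1 + j.val - (e j).val + if (e j).val = 0 then 0 else 0) := by
      congr 1; funext j; congr 1
      rw [Fin.val_succ, if_neg (by omega), ite_self]; omega
    by_cases h : ∀ j : Fin (m + 1), (e j).val ≤ 1 + j.val
    · rw [if_pos (hc.2 h), if_pos h, List.ofFn_succ, List.prod_cons]
      simp only [hv, Perm.decomposeFin_symm_apply_zero, Perm.decomposeFin.symm_sign]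
      rw [hl]
      simp only [Fin.val_zero, if_true, one_mul, add_zero, Nat.sub_zero]
      rw [← mul_assoc, ← mul_assoc, Int.cast_comm]
    · rw [if_neg fun h' => h (hc.1 h'), if_neg h, mul_zero]
  · refine Finset.sum_congr rfl fun e _ => ?_
    have hv : ∀ j : Fin (m + 1),
        ((Perm.decomposeFin.symm ((0 : Fin (m + 1)).succ, e)) j.succ).val =
          if (e j).val = 0 then 0 else (e j).val + 1 := by
      intro j
      rw [Perm.decomposeFin_symm_apply_succ]
      split_ifs with h
      · have : e j = 0 := Fin.ext h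
        rw [this, swap_apply_right]; rfl
      · rw [swap_apply_of_ne_of_ne (Fin.succ_ne_zero _)
          (fun h' => h (by rw [Fin.succ_injective _ h']; rfl))]
        simp
    have hc : (∀ j : Fin (m + 2), ((Perm.decomposeFin.symm ((0 : Fin (m + 1)).succ, e)) j).val ≤
        1 + j.val) ↔ ∀ j : Fin (m + 1), (e j).val ≤ 1 + j.val := by
      rw [Fin.forall_fin_succ, Perm.decomposeFin_symm_apply_zero]
      simp only [hv, Fin.val_succ, Fin.val_zero]
      exact ⟨fun h j => by have := h.2 j; split_ifs at this <;> omega,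
        fun h => ⟨by omega, fun j => by have := h j; split_ifs <;> omega⟩⟩
    have hl : (List.ofFn fun j : Fin (m + 1) => T (1 + j.succ.val -
        (if (e j).val = 0 then 0 else (e j).val + 1) +
        if (if (e j).val = 0 then 0 else (e j).val + 1) = 0 then a else 0)) =
        List.ofFn fun j : Fin (m + 1) =>
        T (1 + j.val - (e j).val + if (e j).val = 0 then a + 1 else 0) := by
      congr 1; funext j; congr 1
      rw [Fin.val_succ]
      by_cases h0 : (e j).val = 0
      · simp only [h0, if_true]; omega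
      · simp only [h0, if_false, Nat.succ_ne_zero]; omega
    by_cases h : ∀ j : Fin (m + 1), (e j).val ≤ 1 + j.val
    · rw [if_pos (hc.2 h), if_pos h, List.ofFn_succ, List.prod_cons]
      simp only [hv, Perm.decomposeFin_symm_apply_zero, Perm.decomposeFin.symm_sign]
      rw [hl, if_neg (Fin.succ_ne_zero _)]
      simp [hT]
    · rw [if_neg fun h' => h (hc.1 h'), if_neg h, neg_zero]

theorem hE_closed (hT : T 0 = 1) (m : ℕ) : ∀ a : ℕ, hE T (m + 1) a =
    ∑ k ∈ range (m + 1), (-1) ^ k * (T (1 + a + k) * hE T (m - k) 0) := by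
  induction m with
  | zero => intro a; simp [hE_one, hE_zero]
  | succ m ih =>
    intro a
    rw [hE_succ T hT, ih (a + 1), Finset.sum_range_succ' _ (m + 1), sub_eq_add_neg, add_comm,
      ← Finset.sum_neg_distrib]
    congr 1
    · refine Finset.sum_congr rfl fun k _ => ?_
      rw [pow_succ, show m + 1 - (k + 1) = m - k by omega,
        show 1 + (a + 1) + k = 1 + a + (k + 1) by omega]
      simp
    · simp

theorem hE_rec (hT : T 0 = 1) (m : ℕ) :
    ∑ k ∈ range (m + 2), (-1) ^ k * (T k * hE T (m + 1 - k) 0) = 0 := by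
  rw [Finset.sum_range_succ', Nat.sub_zero, hE_closed T hT m 0, hT, pow_zero, one_mul, one_mul,
    ← Finset.sum_add_distrib]
  refine Finset.sum_eq_zero fun k _ => ?_
  rw [pow_succ, show m + 1 - (k + 1) = m - k by omega, show 1 + 0 + k = k + 1 by omega]
  simp

end Hess

section Graded

variable {L : Type*} [Fintype L] [DecidableEq L] [PartialOrder L] [DecidableLE L] (r : L → ℕ)

/-- the step matrices -/
def stp (k : ℕ) : Matrix L L ℂ := fun B A => if B ≤ A ∧ r A = r B + k then 1 else 0

theorem stp_eq_1' : type_of% @stp.eq_1 := @stp.eq_1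

theorem stp_zero (hr : StrictMono r) : stp r 0 = 1 := by
  ext B A
  simp only [stp, Matrix.one_apply, add_zero]
  congr 1
  refine propext ⟨fun h => ?_, fun h => ⟨h.le, by rw [h]⟩⟩
  by_contra hne
  exact (hr (lt_of_le_of_ne h.1 hne)).ne h.2.symm

theorem prod_stp (m : ℕ) : ∀ (μ : Fin m → ℕ) (B A : L),
    (List.ofFn fun i => stp r (μ i)).prod B A =
      ∑ W : Fin m → L, if (Fin.cons B W : Fin (m + 1) → L) (Fin.last m) = A ∧
        ∀ i : Fin m, (Fin.cons B W : Fin (m + 1) → L) i.castSucc ≤ W i ∧
          r (W i) = r ((Fin.cons B W : Fin (m + 1) → L) i.castSucc) + μ i then 1 else 0 := by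
  induction m with
  | zero => intro μ B A; simp [Matrix.one_apply]
  | succ m ih =>
    intro μ B A
    rw [List.ofFn_succ, List.prod_cons, Matrix.mul_apply,
      ← Equiv.sum_comp (Fin.consEquiv fun _ : Fin (m + 1) => L), Fintype.sum_prod_type]
    refine Finset.sum_congr rfl fun C _ => ?_
    rw [ih, Finset.mul_sum]
    refine Finset.sum_congr rfl fun W _ => ?_
    simp only [stp, Fin.consEquiv_apply, Fin.forall_fin_succ, Fin.castSucc_zero, Fin.cons_zero,
      Fin.cons_succ, ← Fin.succ_last, ← Fin.succ_castSucc, ite_mul, one_mul, zero_mul]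
    rw [← ite_and]
    congr 1
    exact propext ⟨fun h => ⟨h.2.1, h.1, h.2.2⟩, fun h => ⟨h.2.1, h.1, h.2.2⟩⟩

theorem moeb (hr : StrictMono r) (B A : L) :
    ∑ C ∈ univ.filter (fun C => C ≤ A),
      (if r B ≤ r C then (-1) ^ (r C) * hE (stp r) (r C - r B) 0 B C else 0) =
        if B = A then (-1) ^ r A else 0 := by
  let Z : Matrix L L ℂ := fun B C => if B ≤ C then (-1) ^ (r C - r B) else 0
  let D : Matrix L L ℂ := fun C A => if r C ≤ r A then hE (stp r) (r A - r C) 0 C A else 0
  have hZD : Z * D = 1 := by
    ext B A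
    rw [Matrix.mul_apply]
    by_cases hBA : r B ≤ r A
    · have key : ∑ C, Z B C * D C A = (∑ k ∈ range (r A - r B + 1),
          (-1) ^ k * (stp r k * hE (stp r) (r A - r B - k) 0)) B A := by
        rw [Matrix.sum_apply]
        have : ∀ k ∈ range (r A - r B + 1), ((-1) ^ k * (stp r k * hE (stp r) (r A - r B - k) 0)
            : Matrix L L ℂ) B A = ∑ C, (-1) ^ k * (stp r k B C *
              hE (stp r) (r A - r B - k) 0 C A) := fun k _ => by
          have : ((-1 : Matrix L L ℂ)) ^ k = ((-1 : ℂ) ^ k) • (1 : Matrix L L ℂ) := by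
            rcases Nat.even_or_odd k with h | h <;> simp [h.neg_one_pow]
          rw [this, smul_mul_assoc, one_mul, Matrix.smul_apply, Matrix.mul_apply, smul_eq_mul,
            Finset.mul_sum]
        rw [Finset.sum_congr rfl this, Finset.sum_comm]
        refine Finset.sum_congr rfl fun C _ => ?_
        by_cases hBC : B ≤ C
        · have h1 := hr.monotone hBC
          by_cases hCA : r C ≤ r A
          · rw [Finset.sum_eq_single (r C - r B)]
            · simp only [Z, D, stp, if_pos hBC, if_pos hCA]
              rw [if_pos ⟨hBC, by omega⟩, one_mul, show r A - r B - (r C - r B) = r A - r C by omega]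
            · intro k _ hk
              simp only [stp]
              rw [if_neg (fun h => hk (by omega)), zero_mul, mul_zero]
            · intro h; exfalso; apply h; rw [Finset.mem_range]; omega
          · simp only [Z, D, if_neg hCA, mul_zero]
            refine (Finset.sum_eq_zero fun k hk => ?_).symm
            rw [Finset.mem_range] at hk
            simp only [stp]
            rw [if_neg (fun h => hCA (by omega)), zero_mul, mul_zero]
        · simp only [Z, if_neg hBC, zero_mul]
          refine (Finset.sum_eq_zero fun k hk => ?_).symm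
          simp only [stp]
          rw [if_neg (fun h => hBC h.1), zero_mul, mul_zero]
      rw [key]
      obtain h0 | ⟨m, hm⟩ : r A - r B = 0 ∨ ∃ m, r A - r B = m + 1 := by
        cases h : r A - r B with
        | zero => exact Or.inl rfl
        | succ m => exact Or.inr ⟨m, rfl⟩
      · rw [h0]; simp [stp_zero r hr, hE_zero]
      · rw [hm, hE_rec _ (stp_zero r hr), Matrix.one_apply, if_neg (by rintro rfl; omega)]; rfl
    · rw [Matrix.one_apply, if_neg (by rintro rfl; omega)]
      refine Finset.sum_eq_zero fun C _ => ?_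
      by_cases hBC : B ≤ C
      · have h1 := hr.monotone hBC
        simp only [D]
        rw [if_neg (by omega), mul_zero]
      · simp only [Z, if_neg hBC, zero_mul]
  have hDZ : D * Z = 1 := mul_eq_one_comm.1 hZD
  have h := congrFun (congrFun hDZ B) A
  rw [Matrix.mul_apply, Matrix.one_apply] at h
  have h2 : (if B = A then (-1) ^ r A else 0 : ℂ) = (-1) ^ r A * if B = A then 1 else 0 := by
    split_ifs <;> simp
  rw [h2, ← h, Finset.mul_sum, Finset.sum_filter]
  refine Finset.sum_congr rfl fun C _ => ?_
  simp only [D, Z]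
  by_cases hCA : C ≤ A
  · have h1 := hr.monotone hCA
    rw [if_pos hCA, if_pos hCA]
    split_ifs
    · obtain ⟨k, hk⟩ := Nat.exists_eq_add_of_le h1
      rw [hk, Nat.add_sub_cancel_left, pow_add]
      have : ((-1 : ℂ) ^ k) * (-1) ^ k = 1 := by rw [← mul_pow]; simp
      linear_combination (-(-1) ^ r C * hE (stp r) (r C - r B) 0 B C) * this
    · simp
  · simp [hCA]

end Graded

section Weisner

variable {L : Type*} [Fintype L] [DecidableEq L] [Lattice L] [OrderBot L] [DecidableLE L]

theorem weisner {g : L → ℂ} (hg : ∀ A, A ≠ ⊥ → ∑ C ∈ univ.filter (fun C => C ≤ A), g C = 0)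
    {S : L} (hS : S ≠ ⊥) (Y : L) : ∑ C ∈ univ.filter (fun C => C ⊔ S = Y), g C = 0 := by
  induction Y using WellFoundedLT.induction with
  | ind Y ih =>
    by_cases hSY : S ≤ Y
    · have h1 := hg Y (fun h => hS (le_bot_iff.1 (h ▸ hSY)))
      rw [← Finset.sum_fiberwise_of_maps_to (t := univ.filter fun Y' => Y' ≤ Y)
        (g := fun C => C ⊔ S) (fun C hC => by
          simp only [mem_filter, mem_univ, true_and] at hC ⊢; exact sup_le hC hSY),
        Finset.sum_eq_single Y] at h1
      · rw [← h1]
        refine Finset.sum_congr ?_ fun _ _ => rfl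
        ext C
        simp only [mem_filter, mem_univ, true_and]
        exact ⟨fun h => ⟨h ▸ le_sup_left, h⟩, fun h => h.2⟩
      · intro Y' hY' hne
        simp only [mem_filter, mem_univ, true_and] at hY'
        rw [← ih Y' (lt_of_le_of_ne hY' hne)]
        refine Finset.sum_congr ?_ fun _ _ => rfl
        ext C
        simp only [mem_filter, mem_univ, true_and]
        exact ⟨fun h => h.2, fun h => ⟨(h ▸ le_sup_left : C ≤ Y').trans hY', h⟩⟩
      · intro h; exfalso; apply h; simp
    · refine Finset.sum_eq_zero fun C hC => ?_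
      simp only [mem_filter, mem_univ, true_and] at hC
      exact absurd (hC ▸ le_sup_right) hSY

end Weisner

end Cfsg.Lib.Chev.StGL
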