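import Cfsg.Agent.Chev.StGL1

/-! Steinberg character of `GL_n(q)` at semisimple elements, II: the Moebius function of the
submodule lattice of a finite semisimple `F[X]`-module. -/

set_option autoImplicit false

namespace Cfsg.Lib.Chev.StGL

open Finset Polynomial Module UniqueFactorizationMonoid

universe u

variable (F : Type*) [Field F]

/-- characteristic polynomial of `X` on an `F[X]`-module -/
noncomputable def ch (N : Type*) [AddCommGroup N] [Module F[X] N] [Module F N]
    [IsScalarTower F F[X] N] [Module.Finite F N] : F[X] :=
  (Algebra.lsmul F F N (X : F[X])).charpoly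

theorem ch_eq_1' : type_of% @ch.eq_1 := @ch.eq_1

variable {F}

section
variable {N : Type*} [AddCommGroup N] [Module F[X] N] [Module F N]
    [IsScalarTower F F[X] N] [Module.Finite F N]
  {N' : Type*} [AddCommGroup N'] [Module F[X] N'] [Module F N']
    [IsScalarTower F F[X] N'] [Module.Finite F N']

instance finite_sub (A : Submodule F[X] N) : Module.Finite F A :=
  Module.Finite.of_injective (A.subtype.restrictScalars F) A.subtype_injective

theorem ch_monic : (ch F N).Monic := LinearMap.charpoly_monic _

theorem ch_natDegree : (ch F N).natDegree = finrank F N := LinearMap.charpoly_natDegree _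

theorem ch_equiv (e : N ≃ₗ[F[X]] N') : ch F N = ch F N' := by
  unfold ch
  rw [← LinearEquiv.charpoly_conj (e.restrictScalars F)]
  congr 1
  ext v
  simp [LinearEquiv.conj_apply]

theorem ch_prod : ch F (N × N') = ch F N * ch F N' := by
  unfold ch
  rw [← LinearMap.charpoly_prodMap]
  congr 1

theorem ch_isCompl {A B : Submodule F[X] N} (h : IsCompl A B) : ch F N = ch F A * ch F B := by
  rw [← ch_prod, ch_equiv (Submodule.prodEquivOfIsCompl A B h)]

theorem aeval_lsmul (f : F[X]) (v : N) : aeval (Algebra.lsmul F F N (X : F[X])) f v = f • v := by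
  rw [aeval_algHom_apply, aeval_X_left_apply]; rfl

theorem simple_spec [IsSimpleModule F[X] N] :
    Irreducible (ch F N) ∧ Nonempty (N ≃ₗ[F[X]] F[X] ⧸ Ideal.span {ch F N}) := by
  obtain ⟨I, hI, ⟨e⟩⟩ := isSimpleModule_iff_quot_maximal.1 ‹IsSimpleModule F[X] N›
  obtain ⟨f0, hf0⟩ := (IsPrincipalIdealRing.principal I).principal
  have hne : f0 ≠ 0 := by
    rintro rfl
    have hI0 : I = ⊥ := by rw [hf0]; simp
    have := hI.eq_of_le (J := Ideal.span {X}) (by
      rw [Ne, Ideal.span_singleton_eq_top]; exact not_isUnit_X) (by rw [hI0]; exact bot_le)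
    rw [hI0, eq_comm, Ideal.span_singleton_eq_bot] at this
    exact X_ne_zero this
  classical
  have hI' : I = Ideal.span {normalize f0} := by
    rw [hf0, Ideal.submodule_span_eq]
    exact Ideal.span_singleton_eq_span_singleton.2 (associated_normalize f0)
  have hm : (normalize f0).Monic := monic_normalize hne
  set f := normalize f0
  have hirr : Irreducible f := by
    have : (Ideal.span {f}).IsPrime := hI' ▸ hI.isPrime
    exact ((Ideal.span_singleton_prime hm.ne_zero).1 this).irreducible
  subst hI'
  have : Nontrivial N := IsSimpleModule.nontrivial F[X] N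
  have h0 : aeval (Algebra.lsmul F F N (X : F[X])) f = 0 := by
    ext v
    rw [aeval_lsmul, LinearMap.zero_apply]
    apply e.injective
    rw [map_smul, map_zero]
    obtain ⟨w, hw⟩ := Ideal.Quotient.mk_surjective (e v)
    rw [← hw]
    change Ideal.Quotient.mk _ (f * w) = 0
    exact Ideal.Quotient.eq_zero_iff_mem.2 (Ideal.mul_mem_right _ _ (Ideal.subset_span rfl))
  have hmin : f = minpoly F (Algebra.lsmul F F N (X : F[X])) :=
    minpoly.eq_of_irreducible_of_monic hirr h0 hm
  have hdvd : f ∣ ch F N := hmin ▸ LinearMap.minpoly_dvd_charpoly _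
  have hdeg : (ch F N).natDegree = f.natDegree := by
    rw [ch_natDegree, (e.restrictScalars F).finrank_eq, finrank_quotient_span_eq_natDegree]
  have : ch F N = f := (eq_of_monic_of_dvd_of_natDegree_le hm ch_monic hdvd hdeg.le)
  rw [this]
  exact ⟨hirr, ⟨e⟩⟩

theorem card_hom_simple [Fintype F] [DecidableEq F] [IsSimpleModule F[X] N]
    [IsSimpleModule F[X] N'] : Nat.card (N →ₗ[F[X]] N') =
      Fintype.card F ^ ((ch F N').natDegree * if ch F N' = ch F N then 1 else 0) := by
  split_ifs with h
  · obtain ⟨e⟩ := (simple_spec (F := F) (N := N)).2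
    obtain ⟨e'⟩ := (simple_spec (F := F) (N := N')).2
    rw [mul_one, ch_natDegree, ← Nat.card_eq_fintype_card, ← Module.natCard_eq_pow_finrank,
      Nat.card_congr (LinearEquiv.congrLeft N' ℕ e).toEquiv]
    have hann : ∀ w : N', ch F N • w = 0 := fun w => by
      apply e'.injective
      rw [map_smul, map_zero]
      obtain ⟨w, hw⟩ := Ideal.Quotient.mk_surjective (e' w)
      rw [← hw, ← h]
      change Ideal.Quotient.mk _ (_ * w) = 0
      exact Ideal.Quotient.eq_zero_iff_mem.2 (Ideal.mul_mem_right _ _ (Ideal.subset_span rfl))
    refine Nat.card_congr (Equiv.ofBijective (fun φ => φ 1) ⟨fun φ ψ hφ => ?_, fun w => ?_⟩)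
    · apply LinearMap.ext
      intro v
      obtain ⟨w, rfl⟩ := Ideal.Quotient.mk_surjective v
      have : Ideal.Quotient.mk (Ideal.span {ch F N}) w = w • (1 : F[X] ⧸ Ideal.span {ch F N}) := by
        change _ = Ideal.Quotient.mk _ (w * 1)
        rw [mul_one]
      rw [this, map_smul, map_smul]
      exact congrArg _ hφ
    · refine ⟨Submodule.liftQ (Ideal.span {ch F N}) (LinearMap.toSpanSingleton F[X] N' w) ?_, ?_⟩
      · rw [Ideal.span_le]
        rintro _ rfl
        exact hann w
      · change LinearMap.toSpanSingleton F[X] N' w 1 = w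
        simp
  · rw [mul_zero, pow_zero, Nat.card_eq_one_iff_unique]
    refine ⟨⟨fun φ ψ => ?_⟩, ⟨0⟩⟩
    have : ∀ φ : N →ₗ[F[X]] N', φ = 0 := fun φ => by
      by_contra hφ
      exact h (ch_equiv (LinearEquiv.ofBijective φ (LinearMap.bijective_of_ne_zero hφ))).symm
    rw [this φ, this ψ]

theorem nf_isCompl [DecidableEq F] {S C : Submodule F[X] N} [IsSimpleModule F[X] S]
    (h : IsCompl S C) :
    normalizedFactors (ch F N) = ch F S ::ₘ normalizedFactors (ch F C) := by
  rw [ch_isCompl h, normalizedFactors_mul ch_monic.ne_zero ch_monic.ne_zero,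
    normalizedFactors_irreducible simple_spec.1, ch_monic.normalize_eq_self, Multiset.singleton_add]

theorem finrank_isCompl {S C : Submodule F[X] N} (h : IsCompl S C) :
    finrank F N = finrank F S + finrank F C := by
  rw [← ((Submodule.prodEquivOfIsCompl S C h).restrictScalars F).finrank_eq, Module.finrank_prod]

theorem finrank_pos_simple [IsSimpleModule F[X] N] : 0 < finrank F N := by
  have : Nontrivial N := IsSimpleModule.nontrivial F[X] N
  exact Module.finrank_pos

theorem ch_subsingleton [Subsingleton N] : ch F N = 1 := by
  apply ch_monic.natDegree_eq_zero.1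
  rw [ch_natDegree, Module.finrank_zero_of_subsingleton]

end

theorem card_hom [Fintype F] [DecidableEq F] {S : Type*} [AddCommGroup S] [Module F[X] S]
    [Module F S] [IsScalarTower F F[X] S] [Module.Finite F S] [IsSimpleModule F[X] S] (d : ℕ) :
    ∀ (N : Type u) [AddCommGroup N] [Module F[X] N] [Module F N] [IsScalarTower F F[X] N]
      [Module.Finite F N] [IsSemisimpleModule F[X] N], finrank F N = d →
      Nat.card (N →ₗ[F[X]] S) =
        Fintype.card F ^ ((ch F S).natDegree * (normalizedFactors (ch F N)).count (ch F S)) := by
  induction d using Nat.strong_induction_on with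
  | _ d ih =>
    intro N _ _ _ _ _ _ hd
    rcases subsingleton_or_nontrivial N with hN | hN
    · rw [ch_subsingleton (N := N)]
      simp
    · obtain ⟨S', hS'⟩ := IsSemisimpleModule.exists_simple_submodule F[X] N
      obtain ⟨C, hC⟩ := exists_isCompl S'
      have h1 := finrank_isCompl hC
      have h2 := finrank_pos_simple (F := F) (N := S')
      rw [← Nat.card_congr (LinearMap.ofIsComplProdEquiv (F := S) hC).toEquiv, Nat.card_prod,
        ih _ (by omega) C rfl, card_hom_simple, nf_isCompl hC, Multiset.count_cons, ← pow_add,
        mul_add, add_comm]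

theorem card_isCompl {R N : Type*} [CommRing R] [AddCommGroup N] [Module R N]
    {S C : Submodule R N} (h : IsCompl S C) :
    Nat.card {q // IsCompl S q} = Nat.card (C →ₗ[R] S) := by
  rw [Nat.card_congr S.isComplEquivProj]
  refine Nat.card_congr (Equiv.ofBijective (fun f => f.1.domRestrict C) ⟨fun f g hfg => ?_,
    fun φ => ⟨⟨LinearMap.ofIsCompl h LinearMap.id φ, fun x => by simp⟩, ?_⟩⟩)
  · apply Subtype.ext
    apply LinearMap.ext
    intro x
    obtain ⟨a, b, hab, _⟩ := Submodule.existsUnique_add_of_isCompl h x
    rw [← hab, map_add, map_add, f.2, g.2]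
    exact congrArg _ (LinearMap.congr_fun hfg b)
  · apply LinearMap.ext
    intro x
    simp

/-- the target formula -/
noncomputable def psi [DecidableEq F] (q : ℕ) (s : Multiset F[X]) : ℂ :=
  ∏ f ∈ s.toFinset, (-1 : ℂ) ^ ((f.natDegree - 1) * s.count f) *
    (q : ℂ) ^ (f.natDegree * s.count f * (s.count f - 1) / 2)

theorem psi_eq_1' : type_of% @psi.eq_1 := @psi.eq_1

theorem psi_cons [DecidableEq F] (q : ℕ) (f : F[X]) (s : Multiset F[X]) :
    psi q (f ::ₘ s) = (-1) ^ (f.natDegree - 1) * (q : ℂ) ^ (f.natDegree * s.count f) * psi q s := by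
  have h1 : psi q s = ∏ g ∈ insert f s.toFinset, (-1 : ℂ) ^ ((g.natDegree - 1) * s.count g) *
      (q : ℂ) ^ (g.natDegree * s.count g * (s.count g - 1) / 2) := by
    refine Finset.prod_subset (Finset.subset_insert _ _) fun g _ hg => ?_
    rw [Multiset.mem_toFinset] at hg
    simp [Multiset.count_eq_zero_of_notMem hg]
  rw [h1, psi, Multiset.toFinset_cons, ← Finset.mul_prod_erase _ _ (Finset.mem_insert_self f _),
    ← Finset.mul_prod_erase (insert f s.toFinset) _ (Finset.mem_insert_self f _), ← mul_assoc]
  congr 1
  · rw [Multiset.count_cons_self]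
    generalize s.count f = m
    generalize f.natDegree = d
    have : d * (m + 1) * (m + 1 - 1) / 2 = d * m + d * m * (m - 1) / 2 := by
      have : d * (m + 1) * (m + 1 - 1) = d * m * (m - 1) + 2 * (d * m) := by
        cases m with
        | zero => simp
        | succ m => simp only [Nat.add_sub_cancel]; ring
      rw [this]; omega
    rw [this, mul_add, pow_add, pow_add]; ring
  · refine Finset.prod_congr rfl fun g hg => ?_
    rw [Multiset.count_cons_of_ne (Finset.ne_of_mem_erase hg)]

open Classical in
theorem moeb_semisimple [Fintype F] (d : ℕ) :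
    ∀ (N : Type u) [AddCommGroup N] [Module F[X] N] [Module F N] [IsScalarTower F F[X] N]
      [Module.Finite F N] [IsSemisimpleModule F[X] N] [Fintype (Submodule F[X] N)],
      finrank F N = d → ∀ g : Submodule F[X] N → ℂ,
      (∀ A, ∑ C ∈ univ.filter (fun C => C ≤ A), g C = if ⊥ = A then 1 else 0) →
      (-1) ^ finrank F N * g ⊤ = psi (Fintype.card F) (normalizedFactors (ch F N)) := by
  induction d using Nat.strong_induction_on with
  | _ d ih =>
    intro N _ _ _ _ _ _ _ hd g hg
    rcases subsingleton_or_nontrivial N with hN | hN
    · have h := hg ⊤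
      have hs : univ.filter (fun C : Submodule F[X] N => C ≤ ⊤) = {⊤} := by
        ext C
        simp only [mem_filter, mem_univ, true_and, mem_singleton, le_top, true_iff]
        exact Subsingleton.elim _ _
      rw [if_pos (Subsingleton.elim _ _), hs, Finset.sum_singleton] at h
      rw [ch_subsingleton (N := N), Module.finrank_zero_of_subsingleton, h]
      simp [psi]
    · obtain ⟨S, hS⟩ := IsSemisimpleModule.exists_simple_submodule F[X] N
      have hat : IsAtom S := isSimpleModule_iff_isAtom.1 hS
      obtain ⟨C0, hC0⟩ := exists_isCompl S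
      have h2 := finrank_pos_simple (F := F) (N := S)
      have hw := weisner (g := g) (fun A hA => by rw [hg, if_neg (Ne.symm hA)]) hat.1 ⊤
      have hval : ∀ C, IsCompl S C → (-1) ^ finrank F C0 * g C =
          psi (Fintype.card F) (normalizedFactors (ch F C0)) := fun C hC => by
        have h1 := finrank_isCompl hC
        have h0 := finrank_isCompl hC0
        have hch : ch F C0 = ch F C := by
          have := (ch_isCompl hC0).symm.trans (ch_isCompl hC)
          exact mul_left_cancel₀ ch_monic.ne_zero this
        have : Finite (Submodule F[X] C) :=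
          Finite.of_injective _ (Submodule.MapSubtype.orderEmbedding C).injective
        let _ := Fintype.ofFinite (Submodule F[X] C)
        have := ih _ (by omega) C rfl (fun D => g (D.map C.subtype)) (fun A => by
          have h3 := hg (A.map C.subtype)
          have h4 : (⊥ = A.map C.subtype) ↔ ⊥ = A := by
            rw [← Submodule.map_bot C.subtype]
            exact (Submodule.map_injective_of_injective C.subtype_injective).eq_iff
          rw [if_congr h4 rfl rfl] at h3
          rw [← h3]
          refine Finset.sum_bij (fun D _ => D.map C.subtype) ?_ ?_ ?_ fun _ _ => rfl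
          · intro D hD
            simp only [mem_filter, mem_univ, true_and] at hD ⊢
            exact Submodule.map_mono hD
          · intro D _ D' _ h
            exact Submodule.map_injective_of_injective C.subtype_injective h
          · intro D hD
            simp only [mem_filter, mem_univ, true_and] at hD
            have hDC : D ≤ C := hD.trans (Submodule.map_subtype_le _ _)
            refine ⟨D.comap C.subtype, ?_, ?_⟩
            · simp only [mem_filter, mem_univ, true_and]
              rw [← Submodule.comap_map_eq_of_injective C.subtype_injective A]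
              exact Submodule.comap_mono hD
            · rw [Submodule.map_comap_subtype, inf_eq_right.2 hDC])
        rw [Submodule.map_subtype_top] at this
        rw [hch, show finrank F C0 = finrank F C by omega, this]
      have hset : univ.filter (fun C : Submodule F[X] N => C ⊔ S = ⊤) =
          insert ⊤ (univ.filter fun C => IsCompl S C) := by
        ext C
        simp only [mem_filter, mem_univ, true_and, mem_insert]
        constructor
        · intro h
          by_cases hSC : S ≤ C
          · left; rw [← h, sup_eq_left.2 hSC]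
          · right
            exact ⟨(hat.not_le_iff_disjoint).1 hSC, codisjoint_iff.2 (by rw [sup_comm, h])⟩
        · rintro (rfl | h)
          · simp
          · rw [sup_comm, h.sup_eq_top]
      rw [hset, Finset.sum_insert (by
        simp only [mem_filter, mem_univ, true_and]
        intro h
        exact hat.1 (by simpa using h.inf_eq_bot))] at hw
      have hsum : (-1) ^ finrank F C0 * ∑ C ∈ univ.filter (fun C => IsCompl S C), g C =
          (Fintype.card F : ℂ) ^ ((ch F S).natDegree *
            (normalizedFactors (ch F C0)).count (ch F S)) *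
            psi (Fintype.card F) (normalizedFactors (ch F C0)) := by
        rw [Finset.mul_sum, Finset.sum_congr rfl fun C hC => hval C (Finset.mem_filter.1 hC).2,
          Finset.sum_const, nsmul_eq_mul, ← Fintype.card_subtype, ← Nat.card_eq_fintype_card,
          card_isCompl hC0, card_hom _ C0 rfl, Nat.cast_pow]
      rw [nf_isCompl hC0, psi_cons, finrank_isCompl hC0, mul_assoc, ← hsum,
        eq_neg_of_add_eq_zero_left hw, ch_natDegree]
      obtain ⟨k, hk⟩ := Nat.exists_eq_add_of_lt h2
      rw [hk]
      simp only [zero_add, Nat.add_sub_cancel]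
      ring

end Cfsg.Lib.Chev.StGL
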