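import Cfsg.Agent.Chev.StGL2
import Cfsg.Agent.Char.GLUnip

/-! Steinberg character of `GL_n(q)` at semisimple elements, III: fixed flags. -/

set_option autoImplicit false

namespace Cfsg.Lib.Chev.StGL

open Finset Polynomial Module UniqueFactorizationMonoid
open scoped MatrixGroups

variable {F : Type*} [Field F]

theorem exists_equiv_fix {V : Type*} [AddCommGroup V] [Module F V] [Module.Finite F V]
    {A B C : Submodule F V} (hB : A ≤ B) (hC : A ≤ C) (h : finrank F B = finrank F C) :
    ∃ g : V ≃ₗ[F] V, (∀ a ∈ A, g a = a) ∧ B.map (g : V →ₗ[F] V) = C := by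
  let e0 : B ≃ₗ[F] C := LinearEquiv.ofFinrankEq _ _ h
  let eA : A.comap B.subtype ≃ₗ[F] A.comap C.subtype :=
    (Submodule.comapSubtypeEquivOfLe hB).trans (Submodule.comapSubtypeEquivOfLe hC).symm
  let f : (A.comap B.subtype).map (e0 : B →ₗ[F] C) ≃ₗ[F] A.comap C.subtype :=
    (e0.submoduleMap (A.comap B.subtype)).symm.trans eA
  obtain ⟨g1, hg1⟩ := Submodule.exists_linearEquiv_restrict_eq f
  obtain ⟨g, hg⟩ := Submodule.exists_linearEquiv_restrict_eq (e0.trans g1)
  refine ⟨g, fun a ha => ?_, ?_⟩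
  · have h1 := hg ⟨a, hB ha⟩
    have h2 := hg1 (e0.submoduleMap (A.comap B.subtype) ⟨⟨a, hB ha⟩, ha⟩)
    simp only [f, LinearEquiv.trans_apply, LinearEquiv.symm_apply_apply] at h1 h2
    rw [← h1]
    change ((g1 (e0.submoduleMap (A.comap B.subtype) ⟨⟨a, hB ha⟩, ha⟩ : C) : C) : V) = a
    rw [← h2]
    rfl
  · apply Submodule.eq_of_le_of_finrank_eq
    · rintro _ ⟨b, hb, rfl⟩
      have h1 := hg ⟨b, hb⟩
      change g b ∈ C
      rw [← h1]
      exact Submodule.coe_mem _
    · rw [LinearEquiv.finrank_map_eq, h]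

theorem exists_equiv_chain {V : Type*} [AddCommGroup V] [Module F V] [Module.Finite F V]
    (E W : ℕ → Submodule F V) (hE : Monotone E) (m : ℕ) (hW : ∀ i < m, W i ≤ W (i + 1))
    (h : ∀ i ≤ m, finrank F (E i) = finrank F (W i)) :
    ∃ g : V ≃ₗ[F] V, ∀ i ≤ m, (E i).map (g : V →ₗ[F] V) = W i := by
  induction m with
  | zero =>
    obtain ⟨g, -, hg⟩ := exists_equiv_fix (A := ⊥) bot_le bot_le (h 0 le_rfl)
    exact ⟨g, fun i hi => by rw [Nat.le_zero.1 hi, hg]⟩
  | succ m ih =>
    obtain ⟨g, hg⟩ := ih (fun i hi => hW i (by omega)) (fun i hi => h i (by omega))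
    obtain ⟨k, hk, hk'⟩ := exists_equiv_fix (A := W m) (B := (E (m + 1)).map (g : V →ₗ[F] V))
      (C := W (m + 1)) (by rw [← hg m le_rfl]; exact Submodule.map_mono (hE (by omega)))
      (hW m (by omega)) (by rw [LinearEquiv.finrank_map_eq, h _ le_rfl])
    refine ⟨g.trans k, fun i hi => ?_⟩
    rw [LinearEquiv.coe_trans, Submodule.map_comp]
    rcases Nat.lt_or_ge i (m + 1) with hi' | hi'
    · rw [hg i (by omega)]
      have hle : W i ≤ W m := by
        rw [← hg i (by omega), ← hg m le_rfl]; exact Submodule.map_mono (hE (by omega))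
      apply Submodule.eq_of_le_of_finrank_eq
      · rintro _ ⟨b, hb, rfl⟩
        change k b ∈ _
        rw [hk b (hle hb)]; exact hb
      · rw [LinearEquiv.finrank_map_eq]
    · rw [show i = m + 1 by omega, hk']

variable {n : ℕ}

/-- the coordinate subspace of the first `s` coordinates -/
def crd (F : Type*) [Field F] (n s : ℕ) : Submodule F (Fin n → F) :=
  Submodule.pi {i : Fin n | s ≤ i.val} fun _ => ⊥

theorem crd_eq_1' : type_of% @crd.eq_1 := @crd.eq_1

theorem mem_crd {s : ℕ} {v : Fin n → F} : v ∈ crd F n s ↔ ∀ i : Fin n, s ≤ i.val → v i = 0 := by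
  simp [crd, Submodule.mem_pi]

theorem crd_mono : Monotone (crd F n) := fun s t hst v hv =>
  mem_crd.2 fun i hi => mem_crd.1 hv i (hst.trans hi)

theorem finrank_crd {s : ℕ} (hs : s ≤ n) : finrank F (crd F n s) = s := by
  let f : crd F n s →ₗ[F] (Fin s → F) :=
    (LinearMap.funLeft F F (Fin.castLE hs)).comp (crd F n s).subtype
  have hf : Function.Bijective f := by
    constructor
    · rw [injective_iff_map_eq_zero]
      intro v hv
      apply Subtype.ext
      funext i
      by_cases hi : s ≤ i.val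
      · exact mem_crd.1 v.2 i hi
      · exact congrFun hv ⟨i.val, by omega⟩
    · intro w
      refine ⟨⟨fun i => if h : i.val < s then w ⟨i.val, h⟩ else 0,
        mem_crd.2 fun i hi => dif_neg (by omega)⟩, ?_⟩
      funext j
      simp [f, LinearMap.funLeft]
  rw [(LinearEquiv.ofBijective f hf).finrank_eq]; simp

/-- partial sums -/
def psum (μ : Fin n → ℕ) (t : ℕ) : ℕ := ∑ k ∈ univ.filter (fun k : Fin n => k.val < t), μ k

theorem psum_eq_1' : type_of% @psum.eq_1 := @psum.eq_1

theorem psum_mono (μ : Fin n → ℕ) : Monotone (psum μ) := fun s t h =>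
  Finset.sum_le_sum_of_subset fun k hk => by
    simp only [mem_filter, mem_univ, true_and] at hk ⊢; omega

theorem psum_succ (μ : Fin n → ℕ) (j : Fin n) : psum μ (j.val + 1) = psum μ j.val + μ j := by
  unfold psum
  rw [add_comm _ (μ j), ← Finset.sum_insert (by simp)]
  congr 1
  ext k
  simp only [mem_filter, mem_univ, true_and, mem_insert, Fin.ext_iff]
  omega

theorem psum_n {μ : Fin n → ℕ} (hμ : ∑ i, μ i = n) : psum μ n = n := by
  rw [psum, Finset.filter_true_of_mem fun k _ => k.2, hμ]

theorem psum_le {μ : Fin n → ℕ} (hμ : ∑ i, μ i = n) (t : ℕ) : psum μ t ≤ n :=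
  (Finset.sum_le_sum_of_subset (Finset.subset_univ _)).trans hμ.le

/-- the linear automorphism of an invertible matrix -/
noncomputable def lin (g : GL (Fin n) F) : (Fin n → F) →ₗ[F] (Fin n → F) :=
  Matrix.toLin' (g : Matrix (Fin n) (Fin n) F)

theorem lin_eq_1' : type_of% @lin.eq_1 := @lin.eq_1

theorem lin_mul (g h : GL (Fin n) F) : lin (g * h) = lin g ∘ₗ lin h := by
  simp [lin, Matrix.toLin'_mul]

theorem lin_one : lin (1 : GL (Fin n) F) = LinearMap.id := by simp [lin]

theorem map_lin_inv (g : GL (Fin n) F) (U : Submodule F (Fin n → F)) :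
    (U.map (lin g)).map (lin g⁻¹) = U := by
  rw [← Submodule.map_comp, ← lin_mul, inv_mul_cancel, lin_one, Submodule.map_id]

theorem finrank_map_lin (g : GL (Fin n) F) (U : Submodule F (Fin n → F)) :
    finrank F (U.map (lin g)) = finrank F U := by
  apply le_antisymm (Submodule.finrank_map_le _ _)
  conv_lhs => rw [← map_lin_inv g U]
  exact Submodule.finrank_map_le _ _

theorem map_lin_le_iff (g : GL (Fin n) F) (U : Submodule F (Fin n → F)) :
    U.map (lin g) ≤ U ↔ U.map (lin g) = U :=
  ⟨fun h => Submodule.eq_of_le_of_finrank_eq h (finrank_map_lin g U), fun h => h.le⟩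

theorem mem_parabolic {μ : Fin n → ℕ} (hμ : ∑ i, μ i = n) (g : GL (Fin n) F) :
    g ∈ parabolicGL n F μ ↔ ∀ i : Fin n, (crd F n (psum μ (i.val + 1))).map (lin g) =
      crd F n (psum μ (i.val + 1)) := by
  simp only [← map_lin_le_iff]
  constructor
  · rintro hg t _ ⟨v, hv, rfl⟩
    refine mem_crd.2 fun i hi => ?_
    simp only [lin, Matrix.toLin'_apply, Matrix.mulVec, dotProduct]
    refine Finset.sum_eq_zero fun j _ => ?_
    by_cases hj : psum μ (t.val + 1) ≤ j.val
    · rw [mem_crd.1 hv j hj, mul_zero]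
    · have h1 := (Cfsg.Lib.Char.GLFlag.compLabel_lt_iff μ j (t := t.val + 1) t.2).2 (not_le.1 hj)
      have h2 := mt (Cfsg.Lib.Char.GLFlag.compLabel_lt_iff μ i (t := t.val + 1) t.2).1
        (not_lt.2 hi)
      rw [hg (show compLabel μ j < compLabel μ i by omega), zero_mul]
  · intro h i j hij
    have hi := Cfsg.Lib.Char.GLFlag.compLabel_lt hμ i
    obtain ⟨t, ht⟩ : ∃ t, compLabel μ i = t + 1 := ⟨compLabel μ i - 1, by omega⟩
    have h1 := (Cfsg.Lib.Char.GLFlag.compLabel_lt_iff μ j (t := t + 1) (by omega)).1 (by omega)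
    have h2 := mt (Cfsg.Lib.Char.GLFlag.compLabel_lt_iff μ i (t := t + 1) (by omega)).2 (by omega)
    have h3 : (Pi.single j 1 : Fin n → F) ∈ crd F n (psum μ (t + 1)) := mem_crd.2 fun k hk => by
      rw [Pi.single_eq_of_ne]
      rintro rfl
      exact absurd h1 (not_lt.2 hk)
    have h4 := mem_crd.1 (h ⟨t, by omega⟩ ⟨_, h3, rfl⟩) i (not_lt.1 h2)
    simpa [lin] using h4

theorem card_fixed_eq {G Ω : Type*} [Group G] (H : Subgroup G) (x : G) (f : G → Ω)
    (hf : ∀ a b, f a = f b ↔ a⁻¹ * b ∈ H) (Q : Ω → Prop)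
    (hQ : ∀ ω, Q ω ↔ ∃ a, f a = ω ∧ f (x * a) = f a) :
    Nat.card (MulAction.fixedBy (G ⧸ H) x) = Nat.card {ω // Q ω} := by
  have hfix : ∀ a : G, (a : G ⧸ H) ∈ MulAction.fixedBy (G ⧸ H) x ↔ f (x * a) = f a := fun a => by
    rw [MulAction.mem_fixedBy, hf, ← QuotientGroup.eq]; rfl
  let φ : G ⧸ H → Ω := Quotient.lift f fun a b h => (hf a b).2 (QuotientGroup.leftRel_apply.1 h)
  refine Nat.card_congr (Equiv.ofBijective (fun c => ⟨φ c.1, ?_⟩) ⟨?_, ?_⟩)
  · obtain ⟨c, hc⟩ := c
    obtain ⟨a, rfl⟩ := QuotientGroup.mk_surjective c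
    exact (hQ _).2 ⟨a, rfl, (hfix a).1 hc⟩
  · rintro ⟨c, hc⟩ ⟨d, hd⟩ h
    obtain ⟨a, rfl⟩ := QuotientGroup.mk_surjective c
    obtain ⟨b, rfl⟩ := QuotientGroup.mk_surjective d
    exact Subtype.ext (QuotientGroup.eq.2 ((hf a b).1 (congrArg Subtype.val h)))
  · rintro ⟨ω, hω⟩
    obtain ⟨a, rfl, ha⟩ := (hQ ω).1 hω
    exact ⟨⟨a, (hfix a).2 ha⟩, rfl⟩

theorem fixed_flags {μ : Fin n → ℕ} (hμ : ∑ i, μ i = n) (x : GL (Fin n) F) :
    Nat.card (MulAction.fixedBy (GL (Fin n) F ⧸ parabolicGL n F μ) x) =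
      Nat.card {W : Fin n → Submodule F (Fin n → F) // (∀ i, (W i).map (lin x) ≤ W i) ∧
        (∀ i : Fin n, (Fin.cons ⊥ W : Fin (n + 1) → _) i.castSucc ≤ W i) ∧
        ∀ i : Fin n, finrank F (W i) = psum μ (i.val + 1)} := by
  refine card_fixed_eq _ x (fun g i => (crd F n (psum μ (i.val + 1))).map (lin g)) ?_ _ ?_
  · intro a b
    rw [mem_parabolic hμ, funext_iff]
    refine forall_congr' fun i => ?_
    rw [lin_mul, Submodule.map_comp]
    constructor
    · intro h; rw [← h, map_lin_inv]
    · intro h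
      conv_lhs => rw [← h]
      have := map_lin_inv a⁻¹ ((crd F n (psum μ (i.val + 1))).map (lin b))
      rwa [inv_inv] at this
  · intro W
    constructor
    · rintro ⟨h1, h2, h3⟩
      let W' : ℕ → Submodule F (Fin n → F) := fun t =>
        if h : t < n + 1 then (Fin.cons ⊥ W : Fin (n + 1) → _) ⟨t, h⟩ else ⊤
      have hW' : ∀ i : Fin n, W' (i.val + 1) = W i := fun i => by
        simp only [W']
        rw [dif_pos (by omega)]
        exact Fin.cons_succ (α := fun _ => Submodule F (Fin n → F)) ⊥ W i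
      obtain ⟨g, hg⟩ := exists_equiv_chain (fun t => crd F n (psum μ t)) W'
        (crd_mono.comp (psum_mono μ)) n (fun i hi => by
          rw [hW' ⟨i, hi⟩]
          simp only [W']
          rw [dif_pos (by omega)]
          exact h2 ⟨i, hi⟩) (fun i hi => by
          rw [finrank_crd (psum_le hμ _)]
          cases i with
          | zero =>
            have : W' 0 = ⊥ := by simp only [W']; rw [dif_pos (by omega)]; rfl
            rw [this]; simp [psum]
          | succ i => rw [hW' ⟨i, hi⟩, h3])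
      let a : GL (Fin n) F := ⟨LinearMap.toMatrix' (g : _ →ₗ[F] _),
        LinearMap.toMatrix' (g.symm : _ →ₗ[F] _), by rw [← LinearMap.toMatrix'_comp]; simp,
        by rw [← LinearMap.toMatrix'_comp]; simp⟩
      have ha : lin a = g := by simp [lin, a]
      have hf : (fun i : Fin n => (crd F n (psum μ (i.val + 1))).map (lin a)) = W := by
        funext i
        rw [ha, hg _ i.2, hW']
      refine ⟨a, hf, ?_⟩
      funext i
      rw [lin_mul, Submodule.map_comp, congrFun hf i]
      exact (map_lin_le_iff _ _).1 (h1 i)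
    · rintro ⟨a, rfl, ha⟩
      refine ⟨fun i => ?_, fun i => ?_, fun i => ?_⟩
      · rw [← Submodule.map_comp, ← lin_mul]
        exact (congrFun ha i).le
      · obtain ⟨i, hi⟩ := i
        cases i with
        | zero => exact bot_le
        | succ i =>
          exact Submodule.map_mono (crd_mono (psum_mono μ (by simp)))
      · rw [finrank_map_lin, finrank_crd (psum_le hμ _)]

theorem psum_iff (μ : Fin n → ℕ) (d : Fin (n + 1) → ℕ) (h0 : d 0 = 0) :
    (∀ i : Fin n, d i.succ = d i.castSucc + μ i) ↔ ∀ i : Fin n, d i.succ = psum μ (i.val + 1) := by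
  constructor
  · intro h
    have : ∀ j : Fin (n + 1), d j = psum μ j.val := fun j => by
      induction j using Fin.induction with
      | zero => rw [h0]; simp [psum]
      | succ j ih => rw [h, ih, Fin.val_succ, psum_succ, Fin.val_castSucc]
    exact fun i => this i.succ
  · intro h i
    rw [h, psum_succ]
    congr 1
    obtain ⟨i, hi⟩ := i
    cases i with
    | zero => exact (by simp [psum] : psum μ 0 = 0).trans h0.symm
    | succ i => exact (h ⟨i, by omega⟩).symm

open Classical in
theorem fixed_eq_prod {μ : Fin n → ℕ} (hμ : ∑ i, μ i = n) (x : GL (Fin n) F)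
    [Fintype (Submodule F[X] (AEval' (lin x)))] :
    fixedPointCharacter (parabolicGL n F μ) x =
      (List.ofFn fun i => stp (fun A : Submodule F[X] (AEval' (lin x)) => finrank F A)
        (μ i)).prod ⊥ ⊤ := by
  rw [prod_stp, fixedPointCharacter, fixed_flags hμ, Finset.sum_boole, ← Fintype.card_subtype,
    ← Nat.card_eq_fintype_card]
  congr 1
  symm
  let o := AEval.mapSubmodule F (Fin n → F) (lin x)
  have hr : ∀ A : Submodule F[X] (AEval' (lin x)),
      finrank F (o.symm A : Submodule F (Fin n → F)) = finrank F A := fun A => by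
    have := (AEval.equiv_mapSubmodule (lin x) _ (o.symm A).2).finrank_eq
    rw [this]
    change finrank F (o (o.symm A)) = _
    rw [o.apply_symm_apply]
  have hle : ∀ A B : Submodule F[X] (AEval' (lin x)),
      (o.symm A : Submodule F (Fin n → F)) ≤ o.symm B ↔ A ≤ B := fun A B => o.symm.le_iff_le
  have hcons : ∀ (W : Fin n → Submodule F[X] (AEval' (lin x))) (j : Fin (n + 1)),
      (Fin.cons ⊥ (fun i => (o.symm (W i) : Submodule F (Fin n → F))) : Fin (n + 1) → _) j =
        o.symm ((Fin.cons ⊥ W : Fin (n + 1) → _) j) := fun W j => by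
    refine Fin.cases ?_ (fun i => rfl) j
    rw [Fin.cons_zero, Fin.cons_zero, map_bot]; rfl
  have hbot : finrank F (⊥ : Submodule F[X] (AEval' (lin x))) = 0 :=
    Module.finrank_zero_of_subsingleton
  refine Nat.card_congr (Equiv.ofBijective (fun W => ⟨fun i => o.symm (W.1 i), fun i => ?_,
    fun i => ?_, ?_⟩) ⟨fun W W' h => ?_, ?_⟩)
  · rw [Submodule.map_le_iff_le_comap]
    exact (o.symm (W.1 i)).2
  · rw [hcons, hle]; exact (W.2.2 i).1
  · simp only [hr]
    exact (psum_iff μ (fun j => finrank F ((Fin.cons ⊥ W.1 : Fin (n + 1) → Submodule F[X] _) j))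
      hbot).1 fun i => (W.2.2 i).2
  · apply Subtype.ext
    funext i
    exact o.symm.injective (Subtype.ext (congrFun (congrArg Subtype.val h) i))
  · rintro ⟨W, h1, h2, h3⟩
    let W' : Fin n → Submodule F[X] (AEval' (lin x)) := fun i =>
      o ⟨W i, Submodule.map_le_iff_le_comap.1 (h1 i)⟩
    have hW : (fun i => (o.symm (W' i) : Submodule F (Fin n → F))) = W := by
      funext i; simp [W']
    rw [← hW] at h2 h3
    simp only [hr] at h3
    refine ⟨⟨W', ?_, fun i => ⟨?_, ?_⟩⟩, Subtype.ext hW⟩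
    · have hd : finrank F ((Fin.cons ⊥ W' : Fin (n + 1) → Submodule F[X] _) (Fin.last n)) = n := by
        cases n with
        | zero => exact hbot
        | succ m =>
          rw [← Fin.succ_last, Fin.cons_succ, h3]
          exact psum_n hμ
      apply o.symm.injective
      apply Subtype.ext
      rw [map_top]
      apply Submodule.eq_top_of_finrank_eq
      rw [hr, hd]; simp
    · rw [← hle, ← hcons]; exact h2 i
    · exact (psum_iff μ (fun j => finrank F ((Fin.cons ⊥ W' : Fin (n + 1) → Submodule F[X] _) j))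
        hbot).2 h3 i

open Classical in
theorem steinberg_value [Fintype F] (p : ℕ) [Fact p.Prime] [CharP F p] (x : GL (Fin n) F)
    (hx : (orderOf x).Coprime p) : unipotentCharacterGL n F (fun _ => 1) x =
      psi (Fintype.card F) (normalizedFactors (x : Matrix (Fin n) (Fin n) F).charpoly) := by
  have hfin : Finite (AEval' (lin x)) := Finite.of_equiv _ (AEval'.of (lin x)).toEquiv
  have : Finite (Submodule F[X] (AEval' (lin x))) :=
    Finite.of_injective _ SetLike.coe_injective
  let _ := Fintype.ofFinite (Submodule F[X] (AEval' (lin x)))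
  have hss : IsSemisimpleModule F[X] (AEval' (lin x)) := by
    have hsep : (X ^ orderOf x - 1 : F[X]).Separable := by
      apply (X_pow_sub_one_separable_iff).2
      rw [Ne, CharP.cast_eq_zero_iff F p]
      exact (Nat.Prime.coprime_iff_not_dvd Fact.out).1 hx.symm
    refine Module.End.isSemisimple_of_squarefree_aeval_eq_zero hsep.squarefree ?_
    have : ∀ k : ℕ, lin x ^ k = lin (x ^ k) := fun k => by
      induction k with
      | zero => rw [pow_zero, pow_zero, lin_one]; rfl
      | succ k ih => rw [pow_succ, pow_succ, lin_mul, ih]; rfl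
    rw [map_sub, aeval_X_pow, this, pow_orderOf_eq_one, lin_one, map_one]
    exact sub_self _
  let r : Submodule F[X] (AEval' (lin x)) → ℕ := fun A => finrank F A
  have hr : StrictMono r := fun A B h =>
    Submodule.finrank_lt_finrank_of_lt (s := A.restrictScalars F) (t := B.restrictScalars F) h
  have hN : finrank F (AEval' (lin x)) = n := by
    rw [← (AEval'.of (lin x)).finrank_eq]; simp
  have hrt : r ⊤ = n := ((Submodule.topEquiv.restrictScalars F).finrank_eq).trans hN
  have hrb : r ⊥ = 0 := Module.finrank_zero_of_subsingleton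
  have h := moeb_semisimple _ (AEval' (lin x)) rfl
    (fun C => (-1) ^ r C * hE (stp r) (r C) 0 ⊥ C) (fun A => by
      have := moeb r hr ⊥ A
      simp only [hrb, zero_le, if_true, Nat.sub_zero] at this
      rw [this]
      split_ifs with h
      · rw [← h, hrb, pow_zero]
      · rfl)
  have hch : ch F (AEval' (lin x)) = (x : Matrix (Fin n) (Fin n) F).charpoly := by
    rw [← Matrix.charpoly_toLin', ch, ← LinearEquiv.charpoly_conj (AEval'.of (lin x))]
    congr 1
    apply LinearMap.ext
    intro v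
    obtain ⟨w, rfl⟩ := (AEval'.of (lin x)).surjective v
    rw [LinearEquiv.conj_apply_apply, LinearEquiv.symm_apply_apply]
    exact AEval'.X_smul_of (lin x) w
  rw [hch, hN, hrt, ← mul_assoc, ← mul_pow, neg_one_mul, neg_neg, one_pow, one_mul] at h
  rw [← h, unipotentCharacterGL, hE, Matrix.sum_apply]
  refine Finset.sum_congr rfl fun κ _ => ?_
  split_ifs with hκ
  · have hμ : ∑ i : Fin n, (1 + i.val - (κ i).val) = n := by
      have h1 : ∑ i : Fin n, (1 + i.val - (κ i).val) + ∑ i : Fin n, (κ i).val =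
          ∑ i : Fin n, (1 + i.val) := by
        rw [← Finset.sum_add_distrib]
        exact Finset.sum_congr rfl fun i _ => by have := hκ i; omega
      rw [Equiv.sum_comp κ (fun i => i.val), Finset.sum_add_distrib] at h1
      simpa using h1
    rw [fixed_eq_prod hμ]
    simp only [ite_self, add_zero]
    rw [← zsmul_eq_mul, ← zsmul_eq_mul]
    rfl
  · rfl

end Cfsg.Lib.Chev.StGL
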