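import Cfsg.Agent.Chev.LieSimple
import Cfsg.Agent.Class.FieldIso

/-!
# The Steinberg character of the degenerate orthogonal groups
-/

set_option autoImplicit false
set_option linter.unusedSectionVars false

namespace Cfsg.Lib.Chev

open Matrix Module QuadraticMap Cfsg.Lib.Class Cfsg.Lib.Class.Orth

/-- There is an irreducible character restricting to the regular character of the Sylow
`p`-subgroups. -/
def HasSt (p : ℕ) (G : Type*) [Group G] : Prop := ∃ χ : G → ℂ, IsIrrCharacter G χ ∧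
  ∀ P : Sylow p G, χ 1 = Nat.card P ∧ ∀ x : G, x ∈ P → x ≠ 1 → χ x = 0

theorem HasSt_eq_1' : type_of% @HasSt.eq_1 := @HasSt.eq_1

variable {p : ℕ} [Fact p.Prime] {G : Type*} [Group G]

theorem HasSt.comp {L : Type*} [Group L] (h : HasSt p L) [Finite G] (f : G →* L)
    (hf : Function.Surjective f) (hi : ∀ g k, g ^ p ^ k = 1 → f g = 1 → g = 1) : HasSt p G := by
  obtain ⟨χ, h1, h2⟩ := h
  have key : ∀ P : Sylow p G, ∀ x ∈ P, f x = 1 → x = 1 := fun P x hx =>
    (P.2 ⟨x, hx⟩).elim fun k hk => hi x k (congrArg Subtype.val hk)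
  refine ⟨_, h1.comp_of_surjective f hf, fun P => ⟨?_, fun x hx h => ?_⟩⟩
  · rw [map_one, (h2 (P.mapSurjective hf)).1]
    congr 1
    exact (Nat.card_congr (Equiv.ofBijective (f.subgroupMap P) ⟨(injective_iff_map_eq_one _).2
      fun x e => Subtype.ext (key P x x.2 (congrArg Subtype.val e)),
      f.subgroupMap_surjective _⟩)).symm
  · exact (h2 (P.mapSurjective hf)).2 _ ⟨x, hx, rfl⟩ fun e => h (key P x hx e)

theorem HasSt.of_quot {L : Type*} [Group L] (h : HasSt p (L ⧸ Subgroup.center L)) [Finite G]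
    (f : G →* L) (hf : Function.Surjective f) {n : ℕ} (hn : p.Coprime n)
    (hk : ∀ g, f g ∈ Subgroup.center L → g ^ n = 1) : HasSt p (G ⧸ Subgroup.center G) := by
  refine h.comp (QuotientGroup.map _ _ f fun z hz => Subgroup.mem_center_iff.2 fun x => ?_)
    (fun x => ?_) fun g k h1 h2 => ?_
  · obtain ⟨x, rfl⟩ := hf x
    rw [← map_mul, Subgroup.mem_center_iff.1 hz, map_mul]
  · obtain ⟨x, rfl⟩ := QuotientGroup.mk_surjective x
    obtain ⟨x, rfl⟩ := hf x
    exact ⟨x, rfl⟩
  · obtain ⟨g, rfl⟩ := QuotientGroup.mk_surjective g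
    rw [← orderOf_eq_one_iff]
    exact Nat.eq_one_of_dvd_coprimes (hn.pow_left k) (orderOf_dvd_of_pow_eq_one h1)
      (orderOf_dvd_of_pow_eq_one (by
        rw [← QuotientGroup.mk_pow, hk g ((QuotientGroup.eq_one_iff _).1 h2)]; rfl))

theorem hasSt_of_eq_one (h : ∀ g : G, (∃ k, orderOf g = p ^ k) → g = 1) : HasSt p G := by
  have key : ∀ P : Sylow p G, ∀ x ∈ P, x = 1 := fun P x hx => h x (exists_orderOf_eq_iff.2
    ((P.2 ⟨x, hx⟩).imp fun k hk => congrArg Subtype.val hk))
  refine ⟨_, Char.isIrrCharacter_one, fun P => ⟨?_, fun x hx h => absurd (key P x hx) h⟩⟩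
  rw [(Subgroup.eq_bot_iff_forall _).2 (key P), Subgroup.card_bot, Nat.cast_one]

theorem eq_one_of_dim_two {F V : Type*} [Field F] [CharP F p] [AddCommGroup V] [Module F V]
    [FiniteDimensional F V] {Q : QuadraticForm F V} (h2 : finrank F V = 2) {g : O Q}
    (hp : g ^ p = 1) (hd : dick g = 1) : g = 1 := by
  have : Nontrivial V := Module.nontrivial_of_finrank_pos (R := F) (by omega)
  have : CharP (Module.End F V) p := charP_of_injective_algebraMap (algebraMap F _).injective p
  have h0 : fixs g ≠ ⊥ := fun e => by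
    have h1 : IsUnit (g.1.toLinearMap - 1 : Module.End F V) :=
      (LinearMap.isUnit_iff_ker_eq_bot _).2 (eq_bot_iff.2 fun x hx => e.le (sub_eq_zero.1 hx))
    refine (h1.pow p).ne_zero ?_
    rw [sub_pow_char_of_commute _ (Commute.one_right _), one_pow, sub_eq_zero]
    exact LinearMap.ext fun x => by
      have := congrArg (fun g : O Q => g.1 x) hp
      simpa [LinearEquiv.pow_apply, Module.End.pow_apply] using this
  have h3 := Submodule.finrank_le (fixs g)
  have h4 := mt Submodule.finrank_eq_zero.1 h0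
  have h5 : finrank F (fixs g) = finrank F V := by
    by_contra h
    rw [dick, h2, show finrank F (fixs g) = 1 by omega] at hd
    exact absurd hd (by decide)
  exact O_ext fun x => mem_fixs.1 ((Submodule.eq_top_of_finrank_eq h5).ge trivial)

theorem hasSt_pomega_two {F : Type*} [Field F] [Finite F] [CharP F p] {I : Type} [Fintype I]
    [DecidableEq I] {Q : QuadraticForm F (I → F)} (hQ : (polarBilin Q).Nondegenerate)
    (h2 : Fintype.card I = 2) : HasSt p (POmega F Q) := by
  have : Finite (O Q) := Finite.of_injective _ oMat_injective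
  refine hasSt_of_eq_one fun g => eq_one_of_map (H := ⊤) (fun h _ e => Subtype.ext
    (eq_one_of_dim_two (by simpa using h2) (congrArg Subtype.val e)
      (dick_eq_one_of_mem_commutator hQ (not_exc_of_finrank (by simp [h2])) h.2)))
    ((pomegaEquiv Q).symm.toMonoidHom.comp (QuotientGroup.mk' _)) g ?_
  obtain ⟨x, hx⟩ := QuotientGroup.mk'_surjective _ (pomegaEquiv Q g)
  exact ⟨x, trivial, (pomegaEquiv Q).symm_apply_eq.2 hx⟩

namespace O4

/-- The index set. -/
abbrev I4 := Fin 2 ⊕ Fin 2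
/-- The form. -/
def q4 (v : I4 → ZMod 2) : ZMod 2 := v (.inl 0) * v (.inr 0) + v (.inl 1) * v (.inr 1)
/-- A basis of an anisotropic plane. -/
def mi : Matrix I4 (Fin 2) (ZMod 2) := of (Sum.elim ![![1, 0], ![0, 1]] ![![1, 1], ![0, 1]])
/-- The projection onto the plane. -/
def mp : Matrix (Fin 2) I4 (ZMod 2) := of ![Sum.elim ![1, 1] ![0, 1], Sum.elim ![1, 0] ![1, 0]]
/-- Non-singular vectors. -/
def ve : I4 → ZMod 2 := Sum.elim ![1, 0] ![1, 0]
/-- Non-singular vectors. -/
def va : I4 → ZMod 2 := Sum.elim ![0, 1] ![1, 1]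
/-- Non-singular vectors. -/
def vt : I4 → ZMod 2 := Sum.elim ![0, 1] ![0, 1]
/-- Non-singular vectors. -/
def vu : I4 → ZMod 2 := Sum.elim ![1, 1] ![1, 0]

theorem q4_eq_1' : type_of% @q4.eq_1 := @q4.eq_1
theorem mi_eq_1' : type_of% @mi.eq_1 := @mi.eq_1
theorem mp_eq_1' : type_of% @mp.eq_1 := @mp.eq_1
theorem ve_eq_1' : type_of% @ve.eq_1 := @ve.eq_1
theorem va_eq_1' : type_of% @va.eq_1 := @va.eq_1
theorem vt_eq_1' : type_of% @vt.eq_1 := @vt.eq_1
theorem vu_eq_1' : type_of% @vu.eq_1 := @vu.eq_1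

set_option synthInstance.maxSize 1000 in
theorem block : ∀ e', q4 e' = 1 → ∃ c : ZMod 2, ∀ v, q4 v = 1 → ∀ v', q4 v' = 1 →
    (v = ve ↔ v' = e') → q4 (v + ve) = q4 (v' + e') →
      ((mi * mp) *ᵥ v = v ∧ (mi * mp) *ᵥ v' + c • v' = v') ∨
      ((mi * mp) *ᵥ v = 0 ∧ (mi * mp) *ᵥ v' + c • v' = 0) := by
  decide +kernel

theorem span : ∀ v, q4 v = 1 ∨ ∃ u, q4 u = 1 ∧ ∃ w, q4 w = 1 ∧ v = u + w := by decide +kernel

theorem mem_three : ∀ v, q4 v = 1 → (mi * mp) *ᵥ v = v ∨ v = vt ∨ v = vu ∨ v = vt + vu := by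
  decide +kernel

local notation "Q4" => quadPlus 2 (ZMod 2)

theorem coe_Q4 : ⇑Q4 = q4 := funext fun v => by simp [quadFormPlus, q4]

theorem q4_map (g : O Q4) (v : I4 → ZMod 2) : q4 (g.1 v) = q4 v := coe_Q4 ▸ O_map g v

theorem mat_ext {M N : Matrix I4 I4 (ZMod 2)} (h : ∀ v, q4 v = 1 → M *ᵥ v = N *ᵥ v) : M = N :=
  mulVec_injective (funext fun v => by
    rcases span v with h1 | ⟨u, hu, w, hw, rfl⟩
    · exact h v h1
    · rw [mulVec_add, mulVec_add, h u hu, h w hw])

theorem exists_mul (g : O Q4) :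
    ∃ c : ZMod 2, oMat Q4 g * (mi * mp) = (mi * mp + c • 1) * oMat Q4 g := by
  obtain ⟨c, hc⟩ := block (g.1 ve) ((q4_map g _).trans (by decide))
  refine ⟨c, mat_ext fun v hv => ?_⟩
  rw [← mulVec_mulVec v (oMat _ _), ← mulVec_mulVec v _ (oMat _ _), oMat_mulVec, oMat_mulVec,
    add_mulVec, smul_mulVec, one_mulVec]
  rcases hc v hv (g.1 v) ((q4_map g _).trans hv) g.1.injective.eq_iff.symm
    (by rw [← map_add, q4_map]) with ⟨h1, h2⟩ | ⟨h1, h2⟩
  · rw [h1, h2]
  · rw [h1, h2, map_zero]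

theorem commute_of_mem {g : O Q4} (hg : g ∈ commutator (O Q4)) :
    Commute (oMat Q4 g) (mi * mp) := by
  let K : Subgroup (O Q4) :=
    { carrier := {g | Commute (oMat Q4 g) (mi * mp)}
      one_mem' := by simp
      mul_mem' := fun ha hb => by simpa using Commute.mul_left ha hb
      inv_mem' := fun {g} h => (Commute.units_inv_left (u := (oMat Q4).toHomUnits g) h :) }
  refine (Subgroup.commutator_le (H₃ := K)).2 (fun a _ b _ => ?_) hg
  obtain ⟨c, hc⟩ := exists_mul a
  obtain ⟨d, hd⟩ := exists_mul b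
  have key : ∀ {a b : O Q4} {c d : ZMod 2},
      oMat Q4 a * (mi * mp) = (mi * mp + c • 1) * oMat Q4 a →
      oMat Q4 b * (mi * mp) = (mi * mp + d • 1) * oMat Q4 b →
      oMat Q4 (a * b) * (mi * mp) = (mi * mp + (c + d) • 1) * oMat Q4 (a * b) := fun hc hd => by
    rw [map_mul, mul_assoc, hd, ← mul_assoc, mul_add, hc, ← mul_assoc, add_smul]
    simp [add_mul, add_assoc]
  have h1 := key hc hd
  have h2 := key hd hc
  rw [add_comm d] at h2
  have h3 : oMat Q4 (b * a) * oMat Q4 (b * a)⁻¹ = 1 := by rw [← map_mul, mul_inv_cancel, map_one]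
  have h4 : oMat Q4 (b * a)⁻¹ * oMat Q4 (b * a) = 1 := by rw [← map_mul, inv_mul_cancel, map_one]
  rw [commutatorElement_def, mul_assoc, ← _root_.mul_inv_rev]
  change oMat Q4 (_ * _) * _ = _ * oMat Q4 (_ * _)
  rw [map_mul _ (a * b)]
  generalize oMat Q4 (a * b) = A, oMat Q4 (b * a) = B, oMat Q4 (b * a)⁻¹ = B', mi * mp = P,
    c + d = t at *
  have h5 : B' * (P + t • 1) = P * B' := by
    calc _ = B' * ((P + t • 1) * B) * B' := by rw [mul_assoc, mul_assoc, h3, mul_one]
      _ = _ := by rw [← h2, ← mul_assoc, h4, one_mul]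
  have h6 := congrArg (A * ·) h5
  simp only [← mul_assoc, h1] at h6
  simpa [mul_add, add_mul, mul_assoc] using h6

theorem mp_mul_mi : mp * mi = 1 := by decide

/-- The action on the anisotropic plane. -/
def f0 : commutator (O Q4) →* Matrix (Fin 2) (Fin 2) (ZMod 2) where
  toFun g := mp * oMat Q4 g * mi
  map_one' := by simp [mp_mul_mi]
  map_mul' a b := by
    have := (commute_of_mem a.2).eq
    simp only [Subgroup.coe_mul, map_mul, Matrix.mul_assoc]
    rw [← Matrix.mul_assoc mi, ← Matrix.mul_assoc _ (mi * mp), this, Matrix.mul_assoc (mi * mp),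
      Matrix.mul_assoc mi, ← Matrix.mul_assoc mp mi, mp_mul_mi, Matrix.one_mul]

theorem f0_eq_1' : type_of% @f0.eq_1 := @f0.eq_1

/-- The action on the anisotropic plane. -/
def f1 : commutator (O Q4) →* SpecialLinearGroup (Fin 2) (ZMod 2) where
  toFun g := ⟨f0 g, (by decide : ∀ x y : ZMod 2, x * y = 1 → x = 1) _ (f0 g⁻¹).det (by
    rw [← det_mul, ← map_mul, mul_inv_cancel, map_one, det_one])⟩
  map_one' := Subtype.ext f0.map_one
  map_mul' a b := Subtype.ext (f0.map_mul a b)

theorem f1_eq_1' : type_of% @f1.eq_1 := @f1.eq_1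

theorem oMat_refl {v : I4 → ZMod 2} (hv : q4 v = 1) : oMat Q4 (refl Q4 v) =
    of fun a b => (Pi.single b 1 - polar q4 (Pi.single b 1) v • v : I4 → ZMod 2) a := by
  ext a b
  rw [oMat_apply, refl_apply, coe_Q4, hv, inv_one, one_mul, of_apply]

theorem f1_surjective : Function.Surjective f1 := by
  have hm : ∀ v, q4 v = 1 → refl Q4 v * refl Q4 vt ∈ commutator (O Q4) := fun v hv =>
    refl_mul_refl_mem_commutator (quadPlus_nondegenerate 2) (t := 1)
      (by rw [coe_Q4, hv]; decide) one_ne_zero (by rw [coe_Q4, hv]; decide)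
  refine MonoidHom.range_eq_top.1 (closure_slE _ fun a b h t => ?_)
  rcases (by decide : ∀ t : ZMod 2, t = 0 ∨ t = 1) t with rfl | rfl
  · rw [(slE_eq_one_iff h).2 rfl]; exact one_mem _
  refine ⟨⟨_, hm (if a = 0 then ve else va) (by split_ifs <;> decide)⟩, Subtype.ext ?_⟩
  change mp * oMat Q4 (_ * _) * mi = _
  rw [map_mul, oMat_refl (by split_ifs <;> decide), oMat_refl (by decide), coe_slE h]
  revert a b
  unfold polar
  decide +kernel

/-- The action on the non-singular vectors. -/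
def perm : O Q4 →* Equiv.Perm {v // q4 v = 1} where
  toFun g := Equiv.Perm.subtypePerm g.1.toEquiv fun v => by simp [q4_map]
  map_one' := rfl
  map_mul' _ _ := rfl

theorem perm_eq_1' : type_of% @perm.eq_1 := @perm.eq_1

theorem pow_three {g : commutator (O Q4)} (h : f1 g = 1) : g ^ 3 = 1 := by
  have h1 : oMat Q4 g * (mi * mp) = mi * mp := by
    have h2 : mp * oMat Q4 g * mi = 1 := congrArg Subtype.val h
    calc _ = oMat Q4 g * (mi * mp) * (mi * mp) := by
          rw [mul_assoc, Matrix.mul_assoc mi, ← Matrix.mul_assoc mp, mp_mul_mi, Matrix.one_mul]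
      _ = mi * (mp * oMat Q4 g * mi) * mp := by
          rw [(commute_of_mem g.2).eq]; simp only [Matrix.mul_assoc]
      _ = _ := by rw [h2, Matrix.mul_one]
  have h2 : (perm g).support ⊆ {⟨vt, by decide⟩, ⟨vu, by decide⟩, ⟨vt + vu, by decide⟩} := by
    intro v hv
    rcases mem_three v v.2 with h3 | h3
    · refine absurd (Subtype.ext ?_) (Equiv.Perm.mem_support.1 hv)
      change g.1.1 v = v
      rw [← oMat_mulVec, ← h3, mulVec_mulVec, h1]
    · simpa [Subtype.ext_iff] using h3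
  have h3 := (Finset.card_le_card h2).trans Finset.card_le_three
  have h4 : Equiv.Perm.sign (perm g) = 1 :=
    (MonoidHom.mem_ker (f := Equiv.Perm.sign.comp perm)).1
      (Abelianization.commutator_subset_ker _ g.2)
  have h5 : perm g ^ 3 = 1 := by
    have := (perm g).card_support_ne_one
    obtain h | h | h : (perm g).support.card = 0 ∨ (perm g).support.card = 2 ∨
      (perm g).support.card = 3 := by omega
    · rw [Equiv.Perm.card_support_eq_zero.1 h, one_pow]
    · rw [(Equiv.Perm.card_support_eq_two.1 h).sign_eq] at h4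
      exact absurd h4 (by decide)
    · rw [← (card_support_eq_three_iff.1 h).orderOf, pow_orderOf_eq_one]
  refine Subtype.ext (oMat_injective (mat_ext fun v hv => ?_))
  rw [oMat_mulVec, oMat_mulVec]
  rw [← map_pow] at h5
  exact congrArg Subtype.val (Equiv.congr_fun h5 ⟨v, hv⟩)

theorem hasSt : HasSt 2 (POmega (ZMod 2) Q4) := by
  have : Finite (O Q4) := Finite.of_injective _ oMat_injective
  have h1 : HasSt 2 (commutator (O Q4) ⧸ Subgroup.center (commutator (O Q4))) := by
    refine HasSt.of_quot (LieModel.psl 2 (ZMod 2) 1).exists_steinberg f1 f1_surjective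
      (by decide : Nat.Coprime 2 3) fun g hg => ?_
    obtain ⟨r, hr, e⟩ := Matrix.SpecialLinearGroup.mem_center_iff.1 hg
    obtain rfl : r = 1 := (by decide : ∀ r : ZMod 2, r ^ Fintype.card (Fin 2) = 1 → r = 1) r hr
    exact pow_three (Subtype.ext (e.symm.trans (map_one _)))
  have := Finite.of_equiv _ (pomegaEquiv Q4).symm.toEquiv
  exact h1.comp (pomegaEquiv Q4).toMonoidHom (pomegaEquiv Q4).surjective
    fun _ _ _ h => by simpa using h

end O4

theorem hasSt_pomega_plus (F : Type*) [Field F] [Fintype F] [CharP F p] {m : ℕ} (hm : 1 ≤ m) :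
    HasSt p (POmega F (quadPlus m F)) := by
  rcases hm.eq_or_lt with rfl | hm
  · exact hasSt_pomega_two (quadPlus_nondegenerate 1) rfl
  by_cases h : Exc (quadPlus m F)
  · obtain rfl : m = 2 := by have := h.2.1; simp at this; omega
    have h2 : Fintype.card F = 2 := by
      classical
      rw [← Finset.card_univ, show (Finset.univ : Finset F) = {0, 1} by ext t; simpa using h.1 t,
        Finset.card_pair zero_ne_one]
    obtain ⟨e⟩ := nonempty_ringEquiv_zmod Nat.prime_two h2
    obtain rfl : p = 2 := CharP.eq F inferInstance (charP_two_of_card (n := 1) h2)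
    let e' := pOmegaEquiv e (quadPlus 2 F) (quadPlus 2 (ZMod 2)) fun v => by
      simp [quadFormPlus]
    exact O4.hasSt.comp e'.toMonoidHom e'.surjective fun _ _ _ h => by simpa using h
  · exact (LieModel.pomega p (fits_plus hm) (quadPlus_nondegenerate m) h
      (by simp; omega)).exists_steinberg

theorem hasSt_pomega_minus {F : Type*} [Field F] [Fintype F] [CharP F p] (m : ℕ) {a b : F}
    (hab : ∀ z₁ z₂ : F, z₁ ^ 2 + a * z₁ * z₂ + b * z₂ ^ 2 = 0 → z₁ = 0 ∧ z₂ = 0) :
    HasSt p (POmega F (quadMinus m F a b)) := by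
  rcases Nat.eq_zero_or_pos m with rfl | hm
  · exact hasSt_pomega_two (quadMinus_nondegenerate 0 hab) rfl
  refine (LieModel.pomega p (fits_minus hab) (quadMinus_nondegenerate m hab) ?_
    (by simp; omega)).exists_steinberg
  rintro ⟨-, h, u, w, h1, h2, h3, h4⟩
  obtain rfl : m = 1 := by simp at h; omega
  have h5 : ∀ s t : F, quadMinus 1 F a b (s • u + t • w) = 0 := fun s t => by
    rw [QuadraticMap.map_add (quadMinus 1 F a b), polar_smul_left, polar_smul_right, Q_smul, Q_smul,
      h2, h3, h4]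
    simp
  have h6 : ∀ v, quadMinus 1 F a b v = 0 → v (.inl (.inl 0)) * v (.inl (.inr 0)) = 0 →
      v (.inr 0) = 0 ∧ v (.inr 1) = 0 := fun v h h' => hab _ _ (by
    simpa [quadFormMinus, h'] using h)
  have h7 : ∀ v : (Fin 1 ⊕ Fin 1) ⊕ Fin 2 → F, v (.inl (.inl 0)) = 0 → v (.inl (.inr 0)) = 0 →
      v (.inr 0) = 0 ∧ v (.inr 1) = 0 → v = 0 := fun v h1 h2 h3 => by
    ext ((i | i) | i) <;> fin_cases i <;> simp [h1, h2, h3]
  have e1 := h6 _ (h5 (w (.inl (.inl 0))) (-u (.inl (.inl 0)))) (by simp; left; ring)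
  have e2 := h6 _ (h5 (w (.inl (.inr 0))) (-u (.inl (.inr 0)))) (by simp; right; ring)
  have e3 := h5 (w (.inl (.inl 0)) + w (.inl (.inr 0))) (-u (.inl (.inl 0)) + -u (.inl (.inr 0)))
  have e4 : u (.inl (.inl 0)) * w (.inl (.inr 0)) = w (.inl (.inl 0)) * u (.inl (.inr 0)) := by
    rw [add_smul, add_smul, add_add_add_comm, quadMinus_apply, quadFormMinus,
      Pi.add_apply _ _ (Sum.inr 0), Pi.add_apply _ _ (Sum.inr 1), e1.1, e1.2, e2.1, e2.2] at e3
    simp only [Fin.sum_univ_one, Pi.add_apply, Pi.smul_apply, smul_eq_mul] at e3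
    exact sub_eq_zero.1 (pow_eq_zero_iff two_ne_zero |>.1 (by linear_combination -e3))
  have e5 := (LinearIndependent.pair_iff.1 h1 _ _
    (h7 _ (by simp; ring) (by simp; linear_combination -e4) e1)).2
  have e6 := (LinearIndependent.pair_iff.1 h1 _ _
    (h7 _ (by simp; linear_combination e4) (by simp; ring) e2)).2
  rw [neg_eq_zero] at e5 e6
  exact h1.ne_zero 0 (h7 u e5 e6 (h6 u h2 (by rw [e5, zero_mul])))

end Cfsg.Lib.Chev
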