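/-
Suzuki groups: indices of maximal subgroups; groups with the same orders of maximal subgroups.
-/
import Cfsg.Agent.Chev.SuzukiMax

set_option autoImplicit false

namespace Cfsg.Lib.Chev

/-- If the order of every maximal subgroup of a group that is not a `p`-group divides `n`, so does the order of the group. -/
theorem card_dvd_of_coatoms {G : Type*} [Group G] [Finite G] {n : ℕ}
    (hG : ∀ p : ℕ, p.Prime → ¬ IsPGroup p G) (h : ∀ M : Subgroup G, IsCoatom M → Nat.card M ∣ n) :
    Nat.card G ∣ n := by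
  refine (Nat.dvd_iff_prime_pow_dvd_dvd _ _).2 fun p k hp hk => ?_
  have := Fact.mk hp
  obtain ⟨P, hP⟩ := Sylow.exists_subgroup_card_pow_prime p hk
  rcases eq_top_or_exists_le_coatom P with rfl | ⟨M, hM, hle⟩
  · exact absurd (IsPGroup.of_card (p := p) (n := k) (by rw [← hP, Subgroup.card_top])) (hG p hp)
  · exact (hP ▸ Subgroup.card_dvd_of_le hle).trans (h M hM)

theorem four_dvd_of_mul {i e u n : ℕ} (hu : Odd u) (h : i * (2 ^ e * u) = n) (hn : 2 ^ (e + 2) ∣ n) : 4 ∣ i := by
  have h1 : 2 ^ e * 4 ∣ 2 ^ e * (i * u) := by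
    rw [show 2 ^ e * 4 = 2 ^ (e + 2) by ring, show 2 ^ e * (i * u) = n by rw [← h]; ring]
    exact hn
  exact (Nat.Coprime.pow_left 2 (Nat.coprime_two_left.2 hu)).dvd_of_dvd_mul_right
    (Nat.dvd_of_mul_dvd_mul_left (by positivity) h1)

namespace SzModel

variable {F : Type*} [Field F] [Fintype F] {m : ℕ} {hF : Fintype.card F = 2 ^ (2 * m + 1)}
  {G : Type*} [Group G] (M : SzModel (Tw.ofCard hF) G)

include M in
/-- A maximal subgroup is a point stabiliser, or has index divisible by `4`. -/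
theorem index_coatom {K : Subgroup G} (hK : IsCoatom K) :
    K.index = Fintype.card F ^ 2 + 1 ∨ 4 ∣ K.index := by
  have := M.finite
  have hm : 1 ≤ m := by
    have h := M.eight_le_card
    rw [hF] at h
    by_contra h0
    obtain rfl : m = 0 := by omega
    norm_num at h
  have key : ∀ e u, Odd u → e + 2 ≤ 2 * (2 * m + 1) → Nat.card K = 2 ^ e * u → 4 ∣ K.index := by
    intro e u hu he h
    refine four_dvd_of_mul hu (h ▸ K.index_mul_card) ?_
    rw [M.card_G, mul_assoc]
    refine Dvd.dvd.mul_right ?_ _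
    rw [hF, ← pow_mul]
    exact pow_dvd_pow 2 (by omega)
  rcases M.classification K with ⟨U, hU, hle⟩ | ⟨k, E, hE, rfl⟩
  · have hK' : K = Subgroup.normalizer (U : Set G) :=
      (hK.le_iff_eq hU.normalizer_ne_top).1 hle |>.symm
    rcases hU with ⟨p, rfl⟩ | ⟨a, b, hab, rfl⟩ | ⟨z, hz, rfl⟩
    · left
      rw [hK', normalizer_Pat, M.index_stabilizer]
    · exact Or.inr (key 1 _ (odd_sub_one (τ := Tw.ofCard hF)) (by omega)
        (by rw [hK', M.card_normalizer_Hat hab, pow_one]))
    · exact Or.inr (key 2 _ ((odd_sq_add_one (τ := Tw.ofCard hF)).of_dvd_nat hz.card_centralizer_dvd)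
        (by omega) (by rw [hK', hz.card_normalizer]; rfl))
  · obtain ⟨j, hj, hcard, hdvd⟩ := exists_card_subfield hF E hE
    have hjm : j < m := by
      refine lt_of_le_of_ne (by have := Nat.le_of_dvd (by omega) hdvd; omega) fun h => hK.1 ?_
      rw [h, ← hF, ← Nat.card_eq_fintype_card] at hcard
      exact (M.conjModel k).sub_eq_top_iff.mpr (subfield_eq_top_of_card hcard)
    have h2 : Even (Nat.card E) := by rw [hcard]; exact (Nat.even_pow.2 ⟨even_two, by omega⟩)
    refine Or.inr (key (2 * (2 * j + 1)) ((Nat.card E ^ 2 + 1) * (Nat.card E - 1))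
      ((h2.pow_of_ne_zero two_ne_zero).add_one.mul (Nat.Even.sub_odd (by omega) h2 odd_one))
      (by omega) ?_)
    rw [SzModel.card_sub hF _ E hE, mul_assoc, mul_comm 2, pow_mul, ← hcard]

include M in
theorem not_isPGroup_of_dvd {X : Type*} [Group X] [Finite X]
    (h : Fintype.card F ^ 2 * (Fintype.card F - 1) ∣ Nat.card X) (p : ℕ) (hp : p.Prime) :
    ¬ IsPGroup p X := by
  intro hX
  have := Fact.mk hp
  obtain ⟨n, hn⟩ := IsPGroup.iff_card.1 hX
  have h8 := M.eight_le_card
  have h2 : 2 ∣ p ^ n := hn ▸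
    (((Tw.two_dvd_card (Tw.ofCard hF)).trans (dvd_pow_self _ two_ne_zero)).mul_right _).trans h
  obtain rfl : 2 = p := (Nat.prime_dvd_prime_iff_eq Nat.prime_two hp).1 (Nat.prime_two.dvd_of_dvd_pow h2)
  obtain ⟨k, -, hk⟩ := (Nat.dvd_prime_pow hp).1 (hn ▸ (Dvd.intro_left _ rfl).trans h)
  have ho := odd_sub_one (τ := Tw.ofCard hF)
  rw [hk, Nat.odd_pow_iff] at ho
  · norm_num at ho
  · rintro rfl
    omega

include M in
/-- A group with the orders of maximal subgroups of a Suzuki group has its order. -/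
theorem card_eq_of_coatoms {X : Type*} [Group X] [Finite X]
    (h : {k : ℕ | ∃ K : Subgroup X, IsCoatom K ∧ k = Nat.card K} =
      {k : ℕ | ∃ K : Subgroup G, IsCoatom K ∧ k = Nat.card K}) : Nat.card X = Nat.card G := by
  have := M.finite
  have h1 : ∀ K : Subgroup G, IsCoatom K → Nat.card K ∣ Nat.card X := fun K hK => by
    obtain ⟨L, -, hL⟩ : Nat.card K ∈ {k : ℕ | ∃ K : Subgroup X, IsCoatom K ∧ k = Nat.card K} :=
      h ▸ ⟨K, hK, rfl⟩
    exact hL ▸ L.card_subgroup_dvd_card
  refine Nat.dvd_antisymm (card_dvd_of_coatoms (M.not_isPGroup_of_dvd ?_) fun K hK => ?_)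
    (card_dvd_of_coatoms (M.not_isPGroup_of_dvd ?_) h1)
  · exact M.card_stabilizer M.inf ▸ h1 _ (M.isCoatom_stabilizer _)
  · obtain ⟨L, -, hL⟩ : Nat.card K ∈ {k : ℕ | ∃ K : Subgroup G, IsCoatom K ∧ k = Nat.card K} :=
      h ▸ ⟨K, hK, rfl⟩
    exact hL ▸ L.card_subgroup_dvd_card
  · exact M.card_stabilizer M.inf ▸ Subgroup.card_subgroup_dvd_card _

include M in
/-- A group with the orders of maximal subgroups of a Suzuki group and with a simple quotient that is abelian or
a Suzuki group is isomorphic to it. -/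
theorem nonempty_equiv_of_coatoms {X : Type*} [Group X] [Finite X]
    (h : {k : ℕ | ∃ K : Subgroup X, IsCoatom K ∧ k = Nat.card K} =
      {k : ℕ | ∃ K : Subgroup G, IsCoatom K ∧ k = Nat.card K})
    (N : Subgroup X) [N.Normal] [IsSimpleGroup (X ⧸ N)]
    (hN : IsMulCommutative (X ⧸ N) ∨ Cfsg.Lie.IsoSuzuki (X ⧸ N)) : Nonempty (X ≃* G) := by
  have := M.finite
  have hc := M.card_eq_of_coatoms h
  have key : ∀ K : Subgroup (X ⧸ N), IsCoatom K → K.index = Fintype.card F ^ 2 + 1 ∨ 4 ∣ K.index := by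
    intro K hK
    obtain ⟨L, hL, hc'⟩ : Nat.card (K.comap (QuotientGroup.mk' N)) ∈
        {k : ℕ | ∃ K : Subgroup G, IsCoatom K ∧ k = Nat.card K} :=
      h ▸ ⟨_, Subgroup.isCoatom_comap_of_surjective (QuotientGroup.mk'_surjective N) hK, rfl⟩
    have h1 := (K.comap (QuotientGroup.mk' N)).index_mul_card
    rw [Subgroup.index_comap_of_surjective _ (QuotientGroup.mk'_surjective N), hc, hc',
      ← L.index_mul_card] at h1
    rw [Nat.eq_of_mul_eq_mul_right Nat.card_pos h1]
    exact M.index_coatom hL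
  rcases hN with hN | ⟨E, _, _, k, hk, hE, ⟨e⟩⟩
  · have hp : (Nat.card (X ⧸ N)).Prime := by
      let _ : CommGroup (X ⧸ N) := { (inferInstance : Group (X ⧸ N)) with mul_comm := hN.is_comm.comm }
      exact IsSimpleGroup.prime_card
    have hb : IsCoatom (⊥ : Subgroup (X ⧸ N)) := ⟨bot_ne_top, fun K hK =>
      (Subgroup.Normal.eq_bot_or_eq_top inferInstance).resolve_left hK.ne'⟩
    exfalso
    rcases key ⊥ hb with h1 | h1 <;> rw [Subgroup.index_bot] at h1
    · have hm : 1 ≤ m := by
        have h := M.eight_le_card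
        rw [hF] at h
        by_contra h0
        obtain rfl : m = 0 := by omega
        norm_num at h
      have h2 := sz_tori_lt hm
      rw [h1, hF, ← sz_tori_mul] at hp
      have h3 : 0 < 2 ^ (m + 1) := by positivity
      exact Nat.not_prime_mul (by omega) (by omega) hp
    · have := (Nat.dvd_prime hp).1 h1
      have := (Nat.dvd_prime hp).1 ((by norm_num : 2 ∣ 4).trans h1)
      omega
  · let M' := (lieSzModel hk hE).ofEquiv e
    have h1 := key _ (M'.isCoatom_stabilizer M'.inf)
    rw [M'.index_stabilizer] at h1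
    have h2 : Fintype.card E = Fintype.card F := by
      rcases h1 with h1 | h1
      · exact Nat.pow_left_injective two_ne_zero (Nat.add_right_cancel h1)
      · exact absurd ((by norm_num : 2 ∣ 4).trans h1)
          (Nat.odd_iff.1 (odd_sq_add_one (τ := Tw.ofCard hE)) ▸ by omega)
    have h3 : N = ⊥ := by
      have h4 := Subgroup.card_eq_card_quotient_mul_card_subgroup N
      rw [M'.card_G, h2, ← M.card_G, hc] at h4
      exact Subgroup.card_eq_one.1 (Nat.eq_of_mul_eq_mul_left Nat.card_pos (h4.symm.trans (mul_one _).symm))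
    subst h3
    obtain ⟨f⟩ := M.nonempty_sub_equiv_of_card M' (E := ⊤)
      (by rw [← hE, h2, Nat.card_congr Subfield.topEquiv.toEquiv, Nat.card_eq_fintype_card])
    exact ⟨QuotientGroup.quotientBot.symm.trans (f.symm.trans
      ((MulEquiv.subgroupCongr M.sub_top).trans Subgroup.topEquiv))⟩

end SzModel

end Cfsg.Lib.Chev
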