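import Mathlib

/-!
# A numerical form of Tits' deformation theorem

For associative structure constants over `K[X]`, two specialisations all of whose derivations are
inner have centres of the same dimension.
-/

set_option autoImplicit false
set_option linter.unusedSectionVars false
set_option maxHeartbeats 400000

namespace Cfsg.Lib.Chev.Tits

open Finset Polynomial Module

section rank

variable {K : Type*} [Field K] {l m n : Type*} [Fintype l] [Fintype m] [Fintype n]

theorem exists_rank_factor {R : Type*} [CommRing R] [IsDomain R] [IsPrincipalIdealRing R]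
    [DecidableEq n] (M : Matrix m n R) :
    ∃ r, r = M.rank ∧ ∃ (B : Matrix m (Fin r) R) (C : Matrix (Fin r) n R), M = B * C := by
  let β := Module.finBasis R (LinearMap.range M.mulVecLin)
  refine ⟨finrank R (LinearMap.range M.mulVecLin), rfl, Matrix.of fun i j => (β j : m → R) i,
    Matrix.of fun j k => β.repr ⟨M.mulVecLin (Pi.single k 1), _, rfl⟩ j, ?_⟩
  ext1 i k
  have := congrArg (fun v : LinearMap.range M.mulVecLin => (v : m → R) i)
    (β.sum_repr ⟨M.mulVecLin (Pi.single k 1), _, rfl⟩)
  simp only [AddSubmonoidClass.coe_finsetSum, Finset.sum_apply, SetLike.val_smul, Pi.smul_apply,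
    smul_eq_mul] at this
  rw [Matrix.mul_apply]
  simp only [Matrix.of_apply]
  refine Eq.trans ?_ (this.symm.trans (sum_congr rfl fun j _ => mul_comm _ _))
  simp

theorem rank_map_le {R : Type*} [CommRing R] [IsDomain R] [IsPrincipalIdealRing R]
    [DecidableEq n] (M : Matrix m n R) (φ : R →+* K) : (M.map φ).rank ≤ M.rank := by
  obtain ⟨r, hr, B, C, h⟩ := exists_rank_factor M
  rw [← hr, h, Matrix.map_mul]
  refine (Matrix.rank_mul_le_right (B.map φ) (C.map φ)).trans ?_
  exact (Matrix.rank_le_card_height (C.map φ)).trans (Fintype.card_fin r).le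

theorem rank_add_rank_le {R : Type*} [CommRing R] [IsDomain R] [IsNoetherianRing R] {A : Matrix l m R}
    {B : Matrix m n R} (h : A * B = 0) : A.rank + B.rank ≤ Fintype.card m := by
  have h1 := (LinearMap.ker A.mulVecLin).finrank_quotient_add_finrank
  rw [A.mulVecLin.quotKerEquivRange.finrank_eq] at h1
  have h2 : LinearMap.range B.mulVecLin ≤ LinearMap.ker A.mulVecLin := by
    rw [LinearMap.range_le_ker_iff, ← Matrix.mulVecLin_mul, h, Matrix.mulVecLin_zero]
  have h3 := Submodule.finrank_mono h2
  rw [finrank_pi] at h1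
  unfold Matrix.rank
  omega

end rank

section complex

variable {R : Type*} [CommRing R] {ι : Type*} [Fintype ι] [DecidableEq ι]

/-- Associativity of structure constants. -/
def Assoc (c : ι → ι → ι → R) : Prop :=
  ∀ a b d k, ∑ m, c a b m * c m d k = ∑ m, c b d m * c a m k

/-- The first Hochschild differential. -/
def D0 (c : ι → ι → ι → R) : Matrix (ι × ι) ι R :=
  Matrix.of fun x a => c a x.1 x.2 - c x.1 a x.2

/-- The second Hochschild differential. -/
def D1 (c : ι → ι → ι → R) : Matrix (ι × ι × ι) (ι × ι) R :=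
  Matrix.of fun y x => (if x.2 = y.2.2 then c y.1 y.2.1 x.1 else 0) -
    (if x.1 = y.1 then c x.2 y.2.1 y.2.2 else 0) - (if x.1 = y.2.1 then c y.1 x.2 y.2.2 else 0)

theorem Assoc_eq_1' : type_of% @Assoc.eq_1 := @Assoc.eq_1
theorem D0_eq_1' : type_of% @D0.eq_1 := @D0.eq_1
theorem D1_eq_1' : type_of% @D1.eq_1 := @D1.eq_1

theorem D0_map {S : Type*} [CommRing S] (φ : R →+* S) (c : ι → ι → ι → R) :
    (D0 c).map φ = D0 fun a b k => φ (c a b k) := by
  ext x a; simp [D0]

theorem D1_map {S : Type*} [CommRing S] (φ : R →+* S) (c : ι → ι → ι → R) :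
    (D1 c).map φ = D1 fun a b k => φ (c a b k) := by
  ext y x; simp [D1, apply_ite φ]

theorem D0_mulVec (c : ι → ι → ι → R) (z : ι → R) (b k : ι) :
    (D0 c).mulVec z (b, k) = ∑ a, z a * c a b k - ∑ a, z a * c b a k := by
  simp only [Matrix.mulVec, dotProduct, D0, Matrix.of_apply, ← sum_sub_distrib]
  exact sum_congr rfl fun a _ => by ring

theorem D1_mulVec (c : ι → ι → ι → R) (δ : ι × ι → R) (a b k : ι) :
    (D1 c).mulVec δ (a, b, k) =
      ∑ m, c a b m * δ (m, k) - ∑ l, δ (a, l) * c l b k - ∑ l, δ (b, l) * c a l k := by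
  simp only [Matrix.mulVec, dotProduct, D1, Matrix.of_apply, sub_mul, sum_sub_distrib,
    Fintype.sum_prod_type, ite_mul, zero_mul]
  congr 1
  · congr 1
    · simp
    · rw [sum_comm]; simp [mul_comm]
  · rw [sum_comm]; simp [mul_comm]

theorem D1_mul_D0 {c : ι → ι → ι → R} (h : Assoc c) : D1 c * D0 c = 0 := by
  ext ⟨a, b, k⟩ x
  have := D1_mulVec c (fun y => D0 c y x) a b k
  rw [Matrix.mul_apply, Matrix.zero_apply]
  refine this.trans ?_
  simp only [D0, Matrix.of_apply, mul_sub, sub_mul, sum_sub_distrib]
  rw [h x a b k, h a b x k, h a x b k]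
  ring

end complex

/-- Tits' deformation theorem, numerical form. -/
theorem rank_D0_eq {K ι : Type*} [Field K] [Fintype ι] [DecidableEq ι] {c : ι → ι → ι → K[X]}
    (h : Assoc c) {a : K}
    (ha : (D0 fun i j k => (c i j k).eval a).rank + (D1 fun i j k => (c i j k).eval a).rank =
      Fintype.card (ι × ι)) :
    (D0 fun i j k => (c i j k).eval a).rank = (D0 c).rank := by
  have h1 := rank_map_le (D0 c) (evalRingHom a)
  have h2 := rank_map_le (D1 c) (evalRingHom a)
  have h3 := rank_add_rank_le (D1_mul_D0 h)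
  rw [D0_map] at h1
  rw [D1_map] at h2
  simp only [coe_evalRingHom] at h1 h2
  omega

section algebra

variable {K A ι : Type*} [Field K] [Ring A] [Algebra K A] [Fintype ι] [DecidableEq ι]
  (b : Basis ι K A) {c : ι → ι → ι → K} (hc : ∀ i j, b i * b j = ∑ k, c i j k • b k)
include hc

theorem repr_mul (x y : A) (k : ι) :
    b.repr (x * y) k = ∑ i, ∑ j, b.repr x i * b.repr y j * c i j k := by
  conv_lhs => rw [← b.sum_repr x, ← b.sum_repr y]
  simp only [sum_mul, mul_sum, smul_mul_smul_comm, hc, map_sum, map_smul, Finsupp.coe_finsetSum,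
    Finsupp.coe_smul, Finset.sum_apply, Pi.smul_apply, b.repr_self, Finsupp.single_apply,
    smul_eq_mul, mul_ite, mul_one, mul_zero, sum_ite_eq', mem_univ, if_true]
  exact sum_comm

theorem repr_mul_b (x : A) (j k : ι) : b.repr (x * b j) k = ∑ i, b.repr x i * c i j k := by
  rw [repr_mul b hc]
  simp [Finsupp.single_apply]

theorem repr_b_mul (x : A) (i k : ι) : b.repr (b i * x) k = ∑ j, b.repr x j * c i j k := by
  rw [repr_mul b hc, sum_comm]
  simp [Finsupp.single_apply]

theorem finrank_center_add_rank :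
    finrank K (Subalgebra.center K A) + (D0 c).rank = Fintype.card ι := by
  have h1 := LinearMap.finrank_range_add_finrank_ker (D0 c).mulVecLin
  rw [finrank_pi] at h1
  have h2 : (Subalgebra.toSubmodule (Subalgebra.center K A)).map b.equivFun.toLinearMap =
      LinearMap.ker (D0 c).mulVecLin := by
    ext z
    obtain ⟨x, rfl⟩ := b.equivFun.surjective z
    rw [Submodule.mem_map_equiv, LinearEquiv.symm_apply_apply, Subalgebra.mem_toSubmodule,
      Subalgebra.mem_center_iff, LinearMap.mem_ker, Matrix.mulVecLin_apply]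
    have key : ∀ j k, (D0 c).mulVec (b.equivFun x) (j, k) = b.repr (x * b j - b j * x) k := by
      intro j k
      rw [D0_mulVec, map_sub, Finsupp.sub_apply, repr_mul_b b hc, repr_b_mul b hc]
      rfl
    constructor
    · intro h
      ext ⟨j, k⟩
      rw [key, h, sub_self, map_zero]
      rfl
    · intro h y
      have : ∀ j, b j * x = x * b j := by
        intro j
        rw [eq_comm, ← sub_eq_zero]
        refine b.repr.injective (Finsupp.ext fun k => ?_)
        rw [← key, h, map_zero]
        rfl
      rw [← b.sum_repr y]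
      simp only [sum_mul, mul_sum, smul_mul_assoc, mul_smul_comm, this]
  have h3 := LinearEquiv.finrank_map_eq b.equivFun
    (Subalgebra.toSubmodule (Subalgebra.center K A))
  rw [h2, Subalgebra.finrank_toSubmodule] at h3
  unfold Matrix.rank
  omega

theorem rank_add_rank_of_inner
    (hinner : ∀ δ : A →ₗ[K] A, (∀ x y, δ (x * y) = δ x * y + x * δ y) →
      ∃ z, ∀ x, δ x = z * x - x * z) :
    (D0 c).rank + (D1 c).rank = Fintype.card (ι × ι) := by
  have h1 := LinearMap.finrank_range_add_finrank_ker (D1 c).mulVecLin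
  rw [finrank_pi] at h1
  have hassoc : Assoc c := by
    intro i j k l
    have := congrArg (fun x => b.repr x l) (mul_assoc (b i) (b j) (b k))
    simp only [repr_mul_b b hc (b i * b j), repr_b_mul b hc (b j * b k)] at this
    simpa [hc, Finsupp.single_apply] using this
  have h2 : LinearMap.range (D0 c).mulVecLin = LinearMap.ker (D1 c).mulVecLin := by
    apply le_antisymm
    · rw [LinearMap.range_le_ker_iff, ← Matrix.mulVecLin_mul, D1_mul_D0 hassoc,
        Matrix.mulVecLin_zero]
    · intro d hd
      rw [LinearMap.mem_ker, Matrix.mulVecLin_apply] at hd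
      let δ : A →ₗ[K] A := b.constr K fun i => ∑ k, d (i, k) • b k
      have hδ : ∀ i k, b.repr (δ (b i)) k = d (i, k) := by
        intro i k
        simp [δ, Finsupp.single_apply]
      obtain ⟨z, hz⟩ := hinner δ fun x y => by
        have key : ∀ i j, δ (b i * b j) = δ (b i) * b j + b i * δ (b j) := by
          intro i j
          refine b.repr.injective (Finsupp.ext fun k => ?_)
          have := congrFun hd (i, j, k)
          rw [D1_mulVec, Pi.zero_apply] at this
          rw [map_add, Finsupp.add_apply, repr_mul_b b hc, repr_b_mul b hc, hc]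
          simp only [map_sum, map_smul, Finsupp.coe_finsetSum, Finsupp.coe_smul, Finset.sum_apply,
            Pi.smul_apply, smul_eq_mul, hδ]
          linear_combination this
        rw [← b.sum_repr x, ← b.sum_repr y]
        simp only [sum_mul, mul_sum, smul_mul_smul_comm, map_sum, map_smul, key, smul_add,
          sum_add_distrib]
      refine ⟨b.equivFun z, ?_⟩
      ext ⟨j, k⟩
      rw [Matrix.mulVecLin_apply, D0_mulVec, ← hδ, hz, map_sub, Finsupp.sub_apply, repr_mul_b b hc,
        repr_b_mul b hc]
      rfl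
  rw [← h2] at h1
  unfold Matrix.rank
  omega

omit hc in
/-- In a symmetric algebra whose Casimir element is invertible every derivation is inner. -/
theorem exists_inner_of_casimir (τ : A →ₗ[K] K) (hτ : ∀ x y, τ (x * y) = τ (y * x)) (b' : ι → A)
    (hb' : ∀ i j, τ (b i * b' j) = if i = j then 1 else 0) (hu : IsUnit (∑ i, b i * b' i))
    (δ : A →ₗ[K] A) (hδ : ∀ x y, δ (x * y) = δ x * y + x * δ y) :
    ∃ z, ∀ x, δ x = z * x - x * z := by
  have h1 : ∀ x, x = ∑ j, τ (x * b' j) • b j := by
    intro x
    conv_lhs => rw [← b.sum_repr x]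
    refine sum_congr rfl fun j _ => ?_
    congr 1
    conv_rhs => rw [← b.sum_repr x]
    simp only [sum_mul, smul_mul_assoc, map_sum, map_smul, hb', smul_eq_mul, mul_ite, mul_one,
      mul_zero, sum_ite_eq', mem_univ, if_true]
  have h2 : ∀ x, x = ∑ i, τ (b i * x) • b' i := by
    let φ : A →ₗ[K] (ι → K) := LinearMap.pi fun i => τ ∘ₗ LinearMap.mulLeft K (b i)
    have hφ : ∀ x i, φ x i = τ (b i * x) := fun _ _ => rfl
    have := Module.Finite.of_basis b
    have hsurj : Function.Surjective φ := fun v => ⟨∑ j, v j • b' j, by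
      ext i
      simp [hφ, mul_sum, hb']⟩
    have hinj := (LinearMap.injective_iff_surjective_of_finrank_eq_finrank
      (by rw [finrank_pi, finrank_eq_card_basis b])).2 hsurj
    intro x
    apply hinj
    ext i
    simp [hφ, mul_sum, hb']
  have h3 : ∀ (φ : A →ₗ[K] A) (x : A), ∑ i, x * b i * φ (b' i) = ∑ i, b i * φ (b' i * x) := by
    intro φ x
    calc ∑ i, x * b i * φ (b' i) = ∑ i, ∑ j, τ (x * b i * b' j) • (b j * φ (b' i)) := by
          refine sum_congr rfl fun i _ => ?_
          conv_lhs => rw [h1 (x * b i)]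
          simp only [sum_mul, smul_mul_assoc]
      _ = ∑ j, ∑ i, τ (b i * (b' j * x)) • (b j * φ (b' i)) := by
          rw [sum_comm]
          refine sum_congr rfl fun j _ => sum_congr rfl fun i _ => ?_
          rw [mul_assoc x, hτ x, mul_assoc]
      _ = _ := by
          refine sum_congr rfl fun j _ => ?_
          conv_rhs => rw [h2 (b' j * x)]
          simp only [map_sum, map_smul, mul_sum, mul_smul_comm]
  obtain ⟨u, hu⟩ := hu
  have h4 : ∀ x : A, x * u = u * x := by
    intro x
    have := h3 LinearMap.id x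
    simp only [LinearMap.id_apply, ← mul_assoc] at this
    rw [hu, mul_sum, sum_mul]
    simpa only [mul_assoc] using this
  have h5 : ∀ x : A, x * (u⁻¹ : Aˣ) = (u⁻¹ : Aˣ) * x := by
    intro x
    rw [Units.mul_inv_eq_iff_eq_mul, mul_assoc, h4, Units.inv_mul_cancel_left]
  refine ⟨-((u⁻¹ : Aˣ) * ∑ i, b i * δ (b' i)), fun x => ?_⟩
  have h6 := h3 δ x
  simp only [hδ, mul_add, sum_add_distrib, ← mul_assoc, ← sum_mul, ← hu] at h6
  simp only [mul_assoc, ← mul_sum] at h6
  rw [neg_mul, mul_neg, ← mul_assoc x, h5, mul_assoc, mul_assoc, h6, mul_add,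
    Units.inv_mul_cancel_left]
  abel

end algebra

end Cfsg.Lib.Chev.Tits
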